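import Cfsg.Agent.SmallOrder.Basic
import Cfsg.Agent.S0183

/-!
There is no simple group of order `1004913 = 3^3 · 7 · 13 · 409`: the Sylow subgroups for 7, 13 and
409 are self-centralising, so every centraliser of a non-identity element is nilpotent, and a
CN-group of odd order is solvable.
-/

namespace Cfsg.Agent.SmallOrder

variable {G : Type*} [Group G] [Finite G] [IsSimpleGroup G]

omit [Group G] [Finite G] [IsSimpleGroup G] in
/-- A property of the divisors of a product, checked on the products of divisors. -/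
theorem forall_dvd_mul {a b : ℕ} {Q : ℕ → Prop} (h : ∀ i ∈ Nat.divisors a, ∀ j ∈ Nat.divisors b, Q (i * j))
    [NeZero a] [NeZero b] (d : ℕ) (hd : d ∣ a * b) : Q d := by
  obtain ⟨i, j, hi, hj, rfl⟩ := Nat.dvd_mul.mp hd
  exact h i (Nat.mem_divisors.mpr ⟨hi, NeZero.ne a⟩) j (Nat.mem_divisors.mpr ⟨hj, NeZero.ne b⟩)

/-- In a group of order 1004913 a prime `p ∈ {7, 13, 409}` gives a self-centralising Sylow subgroup. -/
theorem card1004913_centralizer (hc : Nat.card G = 1004913) {p : ℕ} [hp : Fact p.Prime]
    (m : ℕ) (hm : p * m = 1004913) (hpm : ¬ p ∣ m)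
    (key : ∀ d, d ∣ m → d % p = 1 → d = 1 ∨ Nat.gcd (m / d) (p - 1) = 1 ∨ m / d = 3)
    {x : G} (hx : orderOf x = p) :
    Nat.card (Subgroup.centralizer ({x} : Set G)) = p := by
  have hG : ¬ IsMulCommutative G := not_comm_of_not_prime (by rw [hc]; norm_num)
  have hd : p ∣ Nat.card G := hc ▸ hm ▸ dvd_mul_right p m
  have hf : (Nat.card G).factorization p = 1 := by
    rw [hc, ← hm, Nat.factorization_mul hp.out.ne_zero (fun h => hpm (by rw [h]; exact dvd_zero p))]
    simp [Nat.factorization_eq_zero_of_not_dvd hpm, hp.out.factorization_self]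
  let P : Sylow p G := Sylow.ofCard (Subgroup.zpowers x) (by rw [Nat.card_zpowers, hx, hf, pow_one])
  have hP : Nat.card P = p := by
    show Nat.card (Subgroup.zpowers x) = p
    rw [Nat.card_zpowers, hx]
  obtain ⟨-, -, hn, hn1⟩ := sylow_arith (a := 1) (m := m) P (by rw [hc, pow_one, hm]) hpm
  set n := Nat.card (Sylow p G) with hndef
  set N := Subgroup.normalizer ((P : Subgroup G) : Set G) with hNdef
  set C := Subgroup.centralizer ((P : Subgroup G) : Set G) with hCdef
  have hN : Nat.card N = p * (m / n) := by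
    have h := card_normalizer_mul_card_sylow P
    rw [← hndef, ← hNdef, hc, ← hm] at h
    obtain ⟨k, hk⟩ := hn
    have hn0 : 0 < n := Nat.card_pos
    rw [hk, Nat.mul_div_cancel_left _ hn0]
    rw [hk] at h
    exact Nat.eq_of_mul_eq_mul_right hn0 (by rw [h]; ring)
  have hm0 : m ≠ 0 := fun h => hpm (h ▸ dvd_zero p)
  have hPC : (P : Subgroup G) ≤ C := by
    have : IsCyclic (P : Subgroup G) := isCyclic_of_prime_card hP
    exact Subgroup.le_centralizer _
  have hCN : C ≤ N := Subgroup.centralizer_le_normalizer _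
  have hcard : Nat.card C * C.relIndex N = p * (m / n) := by
    have h := (C.subgroupOf N).card_mul_index
    rw [Nat.card_congr (Subgroup.subgroupOfEquivOfLe hCN).toEquiv, hN] at h
    exact h
  obtain ⟨k, hk⟩ := Subgroup.card_dvd_of_le hPC
  rw [hP] at hk
  have hkdvd : k * C.relIndex N = m / n := by
    rw [hk, mul_assoc] at hcard
    exact Nat.eq_of_mul_eq_mul_left hp.out.pos hcard
  obtain ⟨h1, h2⟩ := relIndex_prime_sylow hG P hP
  rcases key n hn hn1 with e | e | e
  · exact absurd e (card_sylow_ne_one hG hd)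
  · exact absurd (Nat.eq_one_of_dvd_coprimes e (hkdvd ▸ dvd_mul_left _ _) h1) h2
  · rw [e] at hkdvd
    have hk1 : k = 1 := by
      rcases (Nat.dvd_prime Nat.prime_three).mp (hkdvd ▸ dvd_mul_right k _) with h | h
      · exact h
      · subst h
        exact absurd (by omega : C.relIndex N = 1) h2
    rw [hk1, mul_one] at hk
    have : Subgroup.centralizer ({x} : Set G) = C := by
      rw [hCdef]
      show _ = Subgroup.centralizer ((Subgroup.zpowers x : Subgroup G) : Set G)
      rw [Subgroup.zpowers_eq_closure, Subgroup.centralizer_closure]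
    rw [this, hk]

/-- No simple group has order 1004913. -/
theorem card_ne_1004913 : Nat.card G ≠ 1004913 := by
  intro hc
  have hG : ¬ IsMulCommutative G := not_comm_of_not_prime (by rw [hc]; norm_num)
  have h7 : Fact (Nat.Prime 7) := ⟨by norm_num⟩
  have h13 : Fact (Nat.Prime 13) := ⟨by norm_num⟩
  have h409 : Fact (Nat.Prime 409) := ⟨by norm_num⟩
  have big : ∀ x : G, ∀ r : ℕ, (r = 7 ∨ r = 13 ∨ r = 409) → orderOf x = r →
      Nat.card (Subgroup.centralizer ({x} : Set G)) = r := by
    rintro x r (rfl | rfl | rfl) hx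
    · exact card1004913_centralizer hc 143559 (by norm_num) (by norm_num)
        (forall_dvd_mul (a := 351) (b := 409) (by decide +kernel)) hx
    · exact card1004913_centralizer hc 77301 (by norm_num) (by norm_num)
        (forall_dvd_mul (a := 189) (b := 409) (by decide +kernel)) hx
    · exact card1004913_centralizer hc 2457 (by norm_num) (by norm_num)
        (forall_dvd_mul (a := 2457) (b := 1) (by decide +kernel)) hx
  have hprime : ∀ q : ℕ, q.Prime → q ∣ Nat.card G → q = 3 ∨ q = 7 ∨ q = 13 ∨ q = 409 := by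
    intro q hq hd
    rw [hc, show (1004913 : ℕ) = 3 ^ 3 * 7 * 13 * 409 by norm_num] at hd
    rcases (Nat.Prime.dvd_mul hq).mp hd with h | h
    · rcases (Nat.Prime.dvd_mul hq).mp h with h | h
      · rcases (Nat.Prime.dvd_mul hq).mp h with h | h
        · exact Or.inl ((Nat.prime_dvd_prime_iff_eq hq Nat.prime_three).mp (hq.dvd_of_dvd_pow h))
        · exact Or.inr (Or.inl ((Nat.prime_dvd_prime_iff_eq hq (by norm_num)).mp h))
      · exact Or.inr (Or.inr (Or.inl ((Nat.prime_dvd_prime_iff_eq hq (by norm_num)).mp h)))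
    · exact Or.inr (Or.inr (Or.inr ((Nat.prime_dvd_prime_iff_eq hq (by norm_num)).mp h)))
  have hCN : Cfsg.IsCNGroup G := by
    intro g hg
    have ho : orderOf g ≠ 1 := fun h => hg (orderOf_eq_one_iff.mp h)
    obtain ⟨q, hq, hqd⟩ := Nat.exists_prime_and_dvd ho
    set y := g ^ (orderOf g / q) with hy
    have hyo : orderOf y = q := orderOf_pow_orderOf_div (orderOf_pos g).ne' hqd
    have hle : Subgroup.centralizer ({g} : Set G) ≤ Subgroup.centralizer ({y} : Set G) := fun c hcm =>
      Subgroup.mem_centralizer_singleton_iff.mpr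
        (Commute.pow_right (Subgroup.mem_centralizer_singleton_iff.mp hcm) _)
    suffices hnil : Group.IsNilpotent (Subgroup.centralizer ({y} : Set G)) by
      exact Group.nilpotent_of_mulEquiv (Subgroup.subgroupOfEquivOfLe hle)
    rcases hprime q hq (hqd.trans (orderOf_dvd_natCard g)) with rfl | h
    · -- the centraliser of an element of order 3 is a 3-group
      have : Fact (Nat.Prime 3) := ⟨Nat.prime_three⟩
      refine (IsPGroup.iff_orderOf.mpr ?_ : IsPGroup 3 (Subgroup.centralizer ({y} : Set G))).isNilpotent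
      intro z
      refine ⟨_, Nat.eq_prime_pow_of_unique_prime_dvd (orderOf_pos z).ne' fun {r} hr hrd => ?_⟩
      by_contra hr3
      have hrG : r ∣ Nat.card G := by
        rw [← Subgroup.orderOf_coe] at hrd
        exact hrd.trans (orderOf_dvd_natCard _)
      have hr' := (hprime r hr hrG).resolve_left hr3
      set w := (z : G) ^ (orderOf (z : G) / r) with hw
      have hwo : orderOf w = r := by
        refine orderOf_pow_orderOf_div (orderOf_pos (z : G)).ne' ?_
        rwa [← Subgroup.orderOf_coe] at hrd
      have hyw : y ∈ Subgroup.centralizer ({w} : Set G) := Subgroup.mem_centralizer_singleton_iff.mpr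
        (Commute.pow_right (Subgroup.mem_centralizer_singleton_iff.mp z.2).symm _)
      have h3 : 3 ∣ Nat.card (Subgroup.centralizer ({w} : Set G)) := by
        rw [← hyo]
        exact Subgroup.orderOf_dvd_natCard _ hyw
      rw [big w r hr' hwo] at h3
      exact hr3 ((Nat.prime_dvd_prime_iff_eq Nat.prime_three hr).mp h3).symm
    · have : Fact q.Prime := ⟨hq⟩
      exact (IsPGroup.of_card (n := 1) (by rw [pow_one, big y q h hyo])).isNilpotent
  have hsol := S0183.result (G := G) (by rw [hc]; decide) hCN
  exact hG ⟨⟨fun a b => IsSimpleGroup.comm_iff_isSolvable.mpr hsol a b⟩⟩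

end Cfsg.Agent.SmallOrder
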