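import Cfsg.Agent.SmallOrder.S168

/-!
The maximal subgroups of the simple group of order 168.
-/

set_option autoImplicit false
set_option maxRecDepth 100000

namespace Cfsg.Agent.SmallOrder.S168

open Cfsg.Agent.FGS4.OrderType

/-- The stabiliser of the plane `x = 0`. -/
abbrev InB0 (u : M) : Prop := u.1.a = 1 ∧ u.1.b = 0 ∧ u.1.c = 0

/-- The normaliser of `⟨t0⟩`. -/
abbrev InN7 (g : M) : Prop := ∃ i : Fin 7, g * t0 * g⁻¹ = t0 ^ i.val

theorem seven_dichotomy : ∀ y : M, InN7 y ∨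
    ((∃ i j : Fin 7, t0 ^ i.val * y * t0 ^ j.val ≠ 1 ∧ (t0 ^ i.val * y * t0 ^ j.val) ^ 3 = 1) ∨
      (∃ i j : Fin 7, t0 ^ i.val * y * t0 ^ j.val * y ≠ 1 ∧ (t0 ^ i.val * y * t0 ^ j.val * y) ^ 3 = 1)) ∧
    ((∃ i j : Fin 7, (t0 ^ i.val * y * t0 ^ j.val) ^ 2 ≠ 1 ∧ (t0 ^ i.val * y * t0 ^ j.val) ^ 4 = 1) ∨
      (∃ i j : Fin 7, (t0 ^ i.val * y * t0 ^ j.val * y) ^ 2 ≠ 1 ∧ (t0 ^ i.val * y * t0 ^ j.val * y) ^ 4 = 1)) := by
  decide +kernel

theorem three_dichotomy : ∀ y : M, InA y ∨ InB0 y ∨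
    (∃ i j : Fin 3, u0 ^ i.val * y * u0 ^ j.val ∈ L7) ∨
    (∃ i j : Fin 3, u0 ^ i.val * y * u0 ^ j.val * y ∈ L7) ∨
    (∃ i j : Fin 3, u0 ^ i.val * y * u0 ^ j.val * y⁻¹ ∈ L7) := by
  decide +kernel

/-- The permutation matrix of `(1 3)` on coordinates. -/
def w13 : M := ⟨⟨0, 0, 1, 0, 1, 0, 1, 0, 0⟩, by decide⟩

theorem inB0_conj : ∀ y : M, InB0 y ↔ InB (w13⁻¹ * y * w13) := by decide +kernel
theorem inT_le_A : ∀ y : M, InT y → InA y := by decide +kernel
theorem nonab_N7 : ∃ a b : M, InN7 a ∧ InN7 b ∧ a * b ≠ b * a := by decide +kernel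
theorem card_N7_fin : Fintype.card {g : M // InN7 g} = 21 := by decide +kernel
theorem not_conj_AB : ∀ g : M, ∃ a : M, InA a ∧ ¬ InB (g * a * g⁻¹) := by decide +kernel

/-- `N(⟨t0⟩)`. -/
def N7 : Subgroup M := Subgroup.normalizer (Subgroup.zpowers t0 : Set M)

theorem orderOf_t0 : orderOf t0 = 7 := orderOf_seven.2 (mem_L7.1 t0_mem)

theorem mem_N7 {g : M} : g ∈ N7 ↔ InN7 g := by
  rw [N7]
  constructor
  · intro hg
    have h1 := (Subgroup.mem_normalizer_iff.1 hg t0).1 (Subgroup.mem_zpowers t0)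
    rw [← mem_powers_iff_mem_zpowers] at h1
    obtain ⟨n, hn⟩ := (Submonoid.mem_powers_iff _ _).1 h1
    refine ⟨⟨n % 7, Nat.mod_lt _ (by norm_num)⟩, ?_⟩
    show g * t0 * g⁻¹ = t0 ^ (n % 7)
    rw [← hn, ← orderOf_t0, pow_mod_orderOf]
  · rintro ⟨i, hi⟩
    refine mem_normalizer_of fun v hv => ?_
    obtain ⟨n, rfl⟩ := Subgroup.mem_zpowers_iff.1 hv
    rw [← conj_zpow, hi]
    exact zpow_mem (pow_mem (Subgroup.mem_zpowers t0) _) n

theorem card_N7 : Nat.card N7 = 21 := by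
  rw [Nat.card_congr (Equiv.subtypeEquivRight fun g => mem_N7 (g := g)), Nat.card_eq_fintype_card,
    card_N7_fin]

/-- `N(V1)`. -/
def NA : Subgroup M := Subgroup.normalizer (V1 : Set M)
/-- `N(V2)`. -/
def NB : Subgroup M := Subgroup.normalizer (V2 : Set M)

theorem card_NA : Nat.card NA = 24 := by
  obtain ⟨e⟩ := normalizer_V1_perm
  rw [NA, Nat.card_congr e.toEquiv, Nat.card_perm]
  simp [Nat.factorial]

theorem card_NB : Nat.card NB = 24 := by
  obtain ⟨e⟩ := normalizer_V2_perm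
  rw [NB, Nat.card_congr e.toEquiv, Nat.card_perm]
  simp [Nat.factorial]

theorem eq_top_of_lt {K : Subgroup M} (h : K.index ≤ 2) : K = ⊤ := by
  have := simple
  have h0 := Subgroup.index_ne_zero_of_finite (H := K)
  rcases (show K.index = 1 ∨ K.index = 2 by omega) with e | e
  · exact Subgroup.index_eq_one.1 e
  · rcases (Subgroup.normal_of_index_eq_two e).eq_bot_or_eq_top with e' | e'
    · rw [e', Subgroup.index_bot, card_model] at e; omega
    · exact e'

/-- Every proper subgroup lies in a conjugate of `N7`, `NA` or `NB`. -/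
theorem cover {K : Subgroup M} (hK : K ≠ ⊤) :
    ∃ g : M, K ≤ N7.map (MulAut.conj g).toMonoidHom ∨ K ≤ NA.map (MulAut.conj g).toMonoidHom ∨
      K ≤ NB.map (MulAut.conj g).toMonoidHom := by
  classical
  have hmap : ∀ {S : Subgroup M} {g x : M}, g⁻¹ * x * g ∈ S → x ∈ S.map (MulAut.conj g).toMonoidHom :=
    fun {S g x} h => ⟨g⁻¹ * x * g, h, by simp [mul_assoc]⟩
  have hd := Subgroup.card_subgroup_dvd_card K
  rw [card_model] at hd
  by_cases h7 : 7 ∣ Nat.card K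
  · haveI : Fact (Nat.Prime 7) := ⟨by norm_num⟩
    obtain ⟨x, hx⟩ := exists_prime_orderOf_dvd_card' (G := K) 7 h7
    rw [← Subgroup.orderOf_coe] at hx
    obtain ⟨g, hg⟩ : ∃ g : M, g * t0 * g⁻¹ ∈ K := by
      obtain ⟨g, e | e⟩ := l7_conj x.1 (mem_L7.2 (orderOf_seven.1 hx))
      · exact ⟨g, e ▸ x.2⟩
      · refine ⟨g, ?_⟩
        have := inv_mem x.2
        rwa [← e, show (g * t0⁻¹ * g⁻¹)⁻¹ = g * t0 * g⁻¹ by group] at this
    refine ⟨g, Or.inl fun z hz => hmap (mem_N7.2 ?_)⟩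
    set K' := K.map (MulAut.conj g⁻¹).toMonoidHom with hK'
    have hzK' : g⁻¹ * z * g ∈ K' := ⟨z, hz, by simp⟩
    have ht : t0 ∈ K' := ⟨g * t0 * g⁻¹, hg, by simp [mul_assoc]⟩
    refine (seven_dichotomy (g⁻¹ * z * g)).resolve_right fun hw => ?_
    have hmem : ∀ i j : ℕ, t0 ^ i * (g⁻¹ * z * g) * t0 ^ j ∈ K' := fun i j =>
      mul_mem (mul_mem (pow_mem ht i) hzK') (pow_mem ht j)
    have hmem' : ∀ i j : ℕ, t0 ^ i * (g⁻¹ * z * g) * t0 ^ j * (g⁻¹ * z * g) ∈ K' := fun i j =>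
      mul_mem (hmem i j) hzK'
    obtain ⟨a, ha, ha'⟩ : ∃ a ∈ K', a ≠ 1 ∧ a ^ 3 = 1 := by
      rcases hw.1 with ⟨i, j, e⟩ | ⟨i, j, e⟩
      exacts [⟨_, hmem _ _, e⟩, ⟨_, hmem' _ _, e⟩]
    obtain ⟨b, hb, hb'⟩ : ∃ b ∈ K', b ^ 2 ≠ 1 ∧ b ^ 4 = 1 := by
      rcases hw.2 with ⟨i, j, e⟩ | ⟨i, j, e⟩
      exacts [⟨_, hmem _ _, e⟩, ⟨_, hmem' _ _, e⟩]
    have h3 : 3 ∣ Nat.card K' := orderOf_three.2 ha' ▸ Subgroup.orderOf_coe (⟨a, ha⟩ : K') ▸
      orderOf_dvd_natCard (⟨a, ha⟩ : K')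
    have h4 : 4 ∣ Nat.card K' := orderOf_four.2 hb' ▸ Subgroup.orderOf_coe (⟨b, hb⟩ : K') ▸
      orderOf_dvd_natCard (⟨b, hb⟩ : K')
    have h7' : 7 ∣ Nat.card K' := orderOf_t0 ▸ Subgroup.orderOf_coe (⟨t0, ht⟩ : K') ▸
      orderOf_dvd_natCard (⟨t0, ht⟩ : K')
    have hcard : Nat.card K' = Nat.card K :=
      (Nat.card_congr (K.equivMapOfInjective (MulAut.conj g⁻¹).toMonoidHom (MulAut.conj g⁻¹).injective).toEquiv).symm
    have hmul := K.card_mul_index
    rw [card_model] at hmul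
    refine hK (eq_top_of_lt ?_)
    obtain ⟨c, hc⟩ : 84 ∣ Nat.card K := by omega
    have hc0 : c ≠ 0 := fun e => (Nat.card_pos (α := K)).ne' (by rw [hc, e, mul_zero])
    rw [hc] at hmul
    nlinarith [Nat.pos_of_ne_zero hc0]
  · by_cases h3 : 3 ∣ Nat.card K
    · haveI : Fact (Nat.Prime 3) := ⟨Nat.prime_three⟩
      obtain ⟨x, hx⟩ := exists_prime_orderOf_dvd_card' (G := K) 3 h3
      rw [← Subgroup.orderOf_coe] at hx
      obtain ⟨g, hg⟩ := conj_three_rep x.1 (orderOf_three.1 hx)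
      set K' := K.map (MulAut.conj g⁻¹).toMonoidHom with hK'
      have hu : u0 ∈ K' := ⟨x.1, x.2, by simp [← hg, mul_assoc]⟩
      have hno : ∀ c ∈ K', c ∉ L7 := by
        intro c hc hc7
        apply h7
        rw [Nat.card_congr (K.equivMapOfInjective (MulAut.conj g⁻¹).toMonoidHom (MulAut.conj g⁻¹).injective).toEquiv]
        have := orderOf_dvd_natCard (⟨c, hc⟩ : K')
        rwa [← Subgroup.orderOf_coe, orderOf_seven.2 (mem_L7.1 hc7)] at this
      have hcase : ∀ y ∈ K', InA y ∨ InB0 y := by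
        intro y hy
        rcases three_dichotomy y with h | h | ⟨i, j, h⟩ | ⟨i, j, h⟩ | ⟨i, j, h⟩
        · exact Or.inl h
        · exact Or.inr h
        · exact absurd h (hno _ (mul_mem (mul_mem (pow_mem hu _) hy) (pow_mem hu _)))
        · exact absurd h (hno _ (mul_mem (mul_mem (mul_mem (pow_mem hu _) hy) (pow_mem hu _)) hy))
        · exact absurd h (hno _ (mul_mem (mul_mem (mul_mem (pow_mem hu _) hy) (pow_mem hu _)) (inv_mem hy)))
      let B0 : Subgroup M := NB.map (MulAut.conj w13).toMonoidHom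
      have hB0 : ∀ y : M, InB0 y → y ∈ B0 := fun y hy => hmap (mem_normalizer_V2.2 ((inB0_conj y).1 hy))
      have hor : K' ≤ NA ∨ K' ≤ B0 := by
        by_contra hcon
        push Not at hcon
        obtain ⟨a, ha, ha'⟩ := SetLike.not_le_iff_exists.1 hcon.1
        obtain ⟨b, hb, hb'⟩ := SetLike.not_le_iff_exists.1 hcon.2
        have haB : a ∈ B0 := hB0 a ((hcase a ha).resolve_left fun h => ha' (mem_normalizer_V1.2 h))
        have hbA : b ∈ NA := mem_normalizer_V1.2 ((hcase b hb).resolve_right fun h => hb' (hB0 b h))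
        rcases hcase _ (mul_mem ha hb) with h | h
        · refine ha' ?_
          have := mul_mem (show a * b ∈ NA from mem_normalizer_V1.2 h) (inv_mem hbA)
          rwa [mul_inv_cancel_right] at this
        · exact hb' (by simpa using mul_mem (inv_mem haB) (hB0 _ h))
      rcases hor with h | h
      · refine ⟨g, Or.inr (Or.inl fun z hz => hmap (h ⟨z, hz, by simp⟩))⟩
      · refine ⟨g * w13, Or.inr (Or.inr fun z hz => ?_)⟩
        obtain ⟨v, hv, e⟩ := h (show g⁻¹ * z * g ∈ K' from ⟨z, hz, by simp⟩)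
        refine ⟨v, hv, ?_⟩
        simp only [MulEquiv.coe_toMonoidHom, MulAut.conj_apply] at e ⊢
        rw [show g * w13 * v * (g * w13)⁻¹ = g * (w13 * v * w13⁻¹) * g⁻¹ by group, e]
        group
    · haveI : Fact (Nat.Prime 2) := ⟨Nat.prime_two⟩
      have hp : IsPGroup 2 K := by
        have hm : Nat.card K ∈ Nat.divisors 168 := Nat.mem_divisors.2 ⟨hd, by norm_num⟩
        rcases (by decide : ∀ n ∈ Nat.divisors 168, ¬ 7 ∣ n → ¬ 3 ∣ n →
          n = 2 ^ 0 ∨ n = 2 ^ 1 ∨ n = 2 ^ 2 ∨ n = 2 ^ 3) _ hm h7 h3 with e | e | e | e <;>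
          exact IsPGroup.of_card e
      obtain ⟨P, hP⟩ := hp.exists_le_sylow
      haveI := simple
      obtain ⟨e, he⟩ := exists_sylow_equiv card_model P
      have hT : T0 ≤ NA := fun y hy => mem_normalizer_V1.2 (inT_le_A y hy)
      obtain ⟨Q, hQ⟩ : ∃ Q : Sylow 2 M, (Q : Subgroup M) = T0 := by
        refine ⟨Sylow.ofCard T0 ?_, rfl⟩
        rw [card_T0, card_model, show 168 = 2 ^ 3 * 21 by norm_num,
          Nat.factorization_mul (by norm_num) (by norm_num), Finsupp.add_apply,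
          Nat.factorization_eq_zero_of_not_dvd (show ¬ 2 ∣ 21 by norm_num),
          Nat.prime_two.factorization_pow, Finsupp.single_eq_same]
        norm_num
      obtain ⟨g, hg⟩ := MulAction.exists_smul_eq M Q P
      refine ⟨g, Or.inr (Or.inl (hP.trans ?_))⟩
      rw [← hg, Sylow.coe_subgroup_smul, hQ]
      exact Subgroup.map_mono hT

theorem isCoatom_of_card {K : Subgroup M} (hc : Nat.card K = 21 ∨ Nat.card K = 24) : IsCoatom K := by
  refine ⟨fun e => ?_, fun L hL => ?_⟩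
  · rw [e, Subgroup.card_top, card_model] at hc; omega
  · by_contra hLt
    obtain ⟨g, hg⟩ := cover hLt
    have hlt : Nat.card K < Nat.card L := by
      by_contra hge
      exact hL.ne (Subgroup.eq_of_le_of_card_ge hL.le (by omega))
    have hd1 := Subgroup.card_dvd_of_le hL.le
    have hle : Nat.card L ∣ 21 ∨ Nat.card L ∣ 24 := by
      have hcm : ∀ S : Subgroup M, L ≤ S.map (MulAut.conj g).toMonoidHom → Nat.card L ∣ Nat.card S := by
        intro S hS
        rw [Nat.card_congr (S.equivMapOfInjective (MulAut.conj g).toMonoidHom (MulAut.conj g).injective).toEquiv]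
        exact Subgroup.card_dvd_of_le hS
      rcases hg with h | h | h
      · exact Or.inl (card_N7 ▸ hcm _ h)
      · exact Or.inr (card_NA ▸ hcm _ h)
      · exact Or.inr (card_NB ▸ hcm _ h)
    have hLpos := Nat.card_pos (α := L)
    rcases hc with hc | hc <;> rw [hc] at hlt hd1 <;> rcases hle with h | h <;>
      have := Nat.le_of_dvd (by norm_num) h <;> interval_cases (Nat.card L) <;> omega

/-- The maximal subgroups. -/
theorem coatom_cases {K : Subgroup M} (hK : IsCoatom K) :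
    ∃ g : M, K = N7.map (MulAut.conj g).toMonoidHom ∨ K = NA.map (MulAut.conj g).toMonoidHom ∨
      K = NB.map (MulAut.conj g).toMonoidHom := by
  obtain ⟨g, hg⟩ := cover hK.1
  have key : ∀ S : Subgroup M, (Nat.card S = 21 ∨ Nat.card S = 24) →
      K ≤ S.map (MulAut.conj g).toMonoidHom → K = S.map (MulAut.conj g).toMonoidHom := by
    intro S hS hle
    rw [Nat.card_congr (S.equivMapOfInjective (MulAut.conj g).toMonoidHom (MulAut.conj g).injective).toEquiv] at hS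
    exact ((hK.le_iff.1 hle).resolve_left (isCoatom_of_card hS).1).symm
  rcases hg with h | h | h
  · exact ⟨g, Or.inl (key _ (Or.inl card_N7) h)⟩
  · exact ⟨g, Or.inr (Or.inl (key _ (Or.inr card_NA) h))⟩
  · exact ⟨g, Or.inr (Or.inr (key _ (Or.inr card_NB) h))⟩

end Cfsg.Agent.SmallOrder.S168
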