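import Cfsg.Agent.SmallOrder.Basic
import Mathlib

/-!
No finite group has exactly twenty-one Sylow `5`-subgroups.
-/

namespace Cfsg.Agent.SmallOrder

open scoped Pointwise

variable {G : Type*} [Group G] [Finite G]

/-- Transfer of a homomorphism on an abelian Sylow subgroup that respects fusion in its normalizer. -/
theorem transfer_of_invariant {p : ℕ} [Fact p.Prime] (S : Sylow p G) (hS : IsMulCommutative (S : Subgroup G))
    {A : Type*} [CommGroup A] (φ : (S : Subgroup G) →* A)
    (hφ : ∀ (x : (S : Subgroup G)) (n : G), n ∈ Subgroup.normalizer ((S : Subgroup G) : Set G) →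
      ∀ y : (S : Subgroup G), (y : G) = n⁻¹ * x * n → φ y = φ x)
    (x : (S : Subgroup G)) : MonoidHom.transfer φ (x : G) = φ x ^ (S : Subgroup G).index := by
  classical
  have := (S : Subgroup G).fintypeQuotientOfFiniteIndex
  have hx : ∀ k : ℕ, (x : G) ^ k ∈ (S : Subgroup G) := fun k => Subgroup.pow_mem _ x.2 k
  have hcen : ∀ y ∈ (S : Subgroup G), y ∈ Subgroup.centralizer ((S : Subgroup G) : Set G) := fun y hy =>
    Subgroup.mem_centralizer_iff.mpr fun z hz => congrArg Subtype.val (hS.is_comm.comm ⟨z, hz⟩ ⟨y, hy⟩)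
  rw [MonoidHom.transfer_eq_prod_quotient_orbitRel_zpowers_quot, Subgroup.index_eq_sum_minimalPeriod _ (x : G),
    ← Finset.prod_pow_eq_pow_sum]
  refine Finset.prod_congr rfl fun q _ => ?_
  set k := Function.minimalPeriod ((x : G) • ·) q.out
  have hm := QuotientGroup.out_conj_pow_minimalPeriod_mem (S : Subgroup G) (x : G) q.out
  obtain ⟨n, hn, he⟩ := S.conj_eq_normalizer_conj_of_mem_centralizer ((x : G) ^ k) q.out.out
    (hcen _ (hx k)) (hcen _ hm)
  rw [hφ (x ^ k) n hn ⟨_, hm⟩ (by rw [Subgroup.coe_pow]; exact he), map_pow]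

/-- A group of fifty or more... : with `21` Sylow `5`-subgroups acting faithfully, these have order `5`. -/
theorem card_eq_five_of_faithful (h21 : Nat.card (Sylow 5 G) = 21)
    (hfaith : ∀ g : G, (∀ Q : Sylow 5 G, g • Q = Q) → g = 1) (P : Sylow 5 G) : Nat.card (P : Subgroup G) = 5 := by
  classical
  have : Fact (Nat.Prime 5) := ⟨by norm_num⟩
  have := Fintype.ofFinite (Sylow 5 G)
  have h21' : Fintype.card (Sylow 5 G) = 21 := by rw [← Nat.card_eq_fintype_card, h21]
  obtain ⟨r, hr⟩ := P.2.exists_card_eq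
  have hcard : ∀ Q : Sylow 5 G, Nat.card (Q : Subgroup G) = 5 ^ r := fun Q => by
    rw [← hr]; exact Nat.card_congr (Q.equiv P).toEquiv
  -- two different Sylow subgroups meet in index five
  have horb : ∀ a b : Sylow 5 G, a ≠ b → Nat.card (MulAction.orbit (a : Subgroup G) b) = 5 ∧
      a ∉ MulAction.orbit (a : Subgroup G) b ∧ ((a : Subgroup G) ⊓ b).relIndex a = 5 := by
    intro a b hab
    have hstab : MulAction.stabilizer (a : Subgroup G) b = ((a : Subgroup G) ⊓ b).subgroupOf a := by
      rw [Subgroup.inf_subgroupOf_left]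
      ext ⟨x, hx⟩
      rw [MulAction.mem_stabilizer_iff, Subgroup.mem_subgroupOf]
      show x • b = b ↔ x ∈ (b : Subgroup G)
      rw [Sylow.smul_eq_iff_mem_normalizer]
      constructor
      · intro h
        exact ((a.2.inf_normalizer_sylow b).le ⟨hx, h⟩).2
      · exact fun h => Subgroup.le_normalizer h
    have hidx : Nat.card (MulAction.orbit (a : Subgroup G) b) = ((a : Subgroup G) ⊓ b).relIndex a := by
      rw [Nat.card_congr (MulAction.orbitEquivQuotientStabilizer (a : Subgroup G) b), hstab]; rfl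
    have hna : a ∉ MulAction.orbit (a : Subgroup G) b := by
      intro ha
      obtain ⟨⟨x, hx⟩, hxb⟩ := MulAction.mem_orbit_symm.mp ha
      have h1 : x • a = b := hxb
      exact hab (by rw [← h1, Sylow.smul_eq_iff_mem_normalizer.mpr (Subgroup.le_normalizer hx)])
    have h5 : ((a : Subgroup G) ⊓ b).relIndex a = 5 := by
      obtain ⟨j, hj⟩ := a.2.index (((a : Subgroup G) ⊓ b).subgroupOf a)
      rw [← Subgroup.relIndex] at hj
      have hle : Nat.card (MulAction.orbit (a : Subgroup G) b) ≤ 20 := by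
        have h1 : (MulAction.orbit (a : Subgroup G) b).ncard ≤ ({a}ᶜ : Set (Sylow 5 G)).ncard :=
          Set.ncard_le_ncard (fun c hc hca => hna (hca ▸ hc)) (Set.toFinite _)
        rw [Set.ncard_compl, Set.ncard_singleton, h21] at h1
        rwa [Nat.card_coe_set_eq]
      rw [hidx, hj] at hle
      rw [hj]
      rcases j with _ | _ | j
      · exfalso
        apply hab
        have h2 := Subgroup.relIndex_eq_one.mp (hj.trans (pow_zero 5))
        exact Sylow.ext (Subgroup.eq_of_le_of_card_ge (h2.trans inf_le_right) (by rw [hcard, hcard]))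
      · rfl
      · exfalso
        have : 5 ^ 2 ≤ 5 ^ (j + 1 + 1) := Nat.pow_le_pow_right (by norm_num) (by omega)
        omega
    exact ⟨hidx.trans h5, hna, h5⟩
  by_contra hne
  have hr2 : 2 ≤ r := by
    rcases r with _ | _ | r
    · exfalso
      have hs : Subsingleton (Sylow 5 G) := ⟨fun a b => Sylow.ext <| by
        rw [Subgroup.eq_bot_of_card_eq _ ((hcard a).trans (pow_zero 5)),
          Subgroup.eq_bot_of_card_eq _ ((hcard b).trans (pow_zero 5))]⟩
      rw [Nat.card_eq_one_iff_unique.mpr ⟨hs, inferInstance⟩] at h21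
      omega
    · exact absurd (hr.trans (pow_one 5)) hne
    · omega
  let R : Sylow 5 G → Sylow 5 G → Subgroup G := fun a b => (a : Subgroup G) ⊓ b
  have hRcard : ∀ a b, a ≠ b → Nat.card (R a b) = 5 ^ (r - 1) := fun a b hab => by
    have h1 := ((R a b).subgroupOf (a : Subgroup G)).card_mul_index
    rw [← Subgroup.relIndex, (horb a b hab).2.2,
      Nat.card_congr (Subgroup.subgroupOfEquivOfLe (inf_le_left : R a b ≤ a)).toEquiv, hcard,
      show 5 ^ r = 5 ^ (r - 1) * 5 by rw [← pow_succ]; congr 1; omega] at h1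
    exact Nat.eq_of_mul_eq_mul_right (by norm_num) h1
  have hRuniq : ∀ a b c d : Sylow 5 G, a ≠ b → c ≠ d → R a b ≤ (c : Subgroup G) → R a b ≤ (d : Subgroup G) → R c d = R a b := fun a b c d hab hcd hc hd =>
    (Subgroup.eq_of_le_of_card_ge (le_inf hc hd) (by rw [hRcard a b hab]; exact (hRcard c d hcd).le)).symm
  have hconst : ∀ a b : Sylow 5 G, a ≠ b → ∀ c ∈ MulAction.orbit (a : Subgroup G) b, R a b ≤ (c : Subgroup G) := by
    intro a b hab c hc
    obtain ⟨⟨x, hx⟩, hxc⟩ := hc
    have hxc' : x • b = c := hxc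
    have hn : ((R a b).subgroupOf (a : Subgroup G)).Normal := by
      refine Subgroup.normal_of_index_eq_minFac_card ?_
      rw [← Subgroup.relIndex, (horb a b hab).2.2, hcard, Nat.pow_minFac (by omega), Nat.Prime.minFac_eq (by norm_num)]
    intro y hy
    have h1 : x⁻¹ * y * x ∈ R a b := by
      have := hn.conj_mem ⟨y, hy.1⟩ hy ⟨x⁻¹, (a : Subgroup G).inv_mem hx⟩
      simpa [Subgroup.mem_subgroupOf] using this
    rw [← hxc', Sylow.coe_subgroup_smul, Subgroup.mem_pointwise_smul_iff_inv_smul_mem, ← map_inv,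
      MulAut.smul_def, MulAut.conj_apply, inv_inv]
    exact h1.2
  -- each point lies on at most four lines
  have hfour : ∀ c : Sylow 5 G, ((Finset.univ.erase c).image (R c)).card ≤ 4 := by
    intro c
    have h1 := Finset.mul_card_image_le_card (f := R c) (Finset.univ.erase c) 5 fun X hX => by
      obtain ⟨b, hb, rfl⟩ := Finset.mem_image.mp hX
      have hcb : c ≠ b := (Finset.mem_erase.mp hb).1.symm
      have hsub : (MulAction.orbit (c : Subgroup G) b).toFinset ⊆ (Finset.univ.erase c).filter fun d => R c d = R c b := by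
        intro d hd
        rw [Set.mem_toFinset] at hd
        have hcd : c ≠ d := fun e => (horb c b hcb).2.1 (e ▸ hd)
        exact Finset.mem_filter.mpr ⟨Finset.mem_erase.mpr ⟨hcd.symm, Finset.mem_univ _⟩,
          hRuniq c b c d hcb hcd inf_le_left (hconst c b hcb d hd)⟩
      refine le_trans (le_of_eq ?_) (Finset.card_le_card hsub)
      rw [← Set.ncard_eq_toFinset_card', ← Nat.card_coe_set_eq, (horb c b hcb).1]
    rw [Finset.card_erase_of_mem (Finset.mem_univ _), Finset.card_univ, h21'] at h1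
    omega
  obtain ⟨b, hb⟩ : ∃ b, P ≠ b := by
    by_contra h
    push Not at h
    have hs : Subsingleton (Sylow 5 G) := ⟨fun a b => (h a).symm.trans (h b)⟩
    rw [Nat.card_eq_one_iff_unique.mpr ⟨hs, inferInstance⟩] at h21
    omega
  let L : Finset (Sylow 5 G) := Finset.univ.filter fun d => R P b ≤ (d : Subgroup G)
  have hL6 : 6 ≤ L.card := by
    have hsub : insert P (MulAction.orbit (P : Subgroup G) b).toFinset ⊆ L := by
      intro d hd
      rcases Finset.mem_insert.mp hd with rfl | hd
      · exact Finset.mem_filter.mpr ⟨Finset.mem_univ _, inf_le_left⟩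
      · exact Finset.mem_filter.mpr ⟨Finset.mem_univ _, hconst P b hb d (Set.mem_toFinset.mp hd)⟩
    refine le_trans (le_of_eq ?_) (Finset.card_le_card hsub)
    rw [Finset.card_insert_of_notMem (fun h => (horb P b hb).2.1 (Set.mem_toFinset.mp h)),
      ← Set.ncard_eq_toFinset_card', ← Nat.card_coe_set_eq, (horb P b hb).1]
  obtain ⟨c, hc⟩ : ∃ c, c ∉ L := by
    by_contra h
    push Not at h
    have hbot : R P b = ⊥ := (eq_bot_iff).mpr fun y hy => Subgroup.mem_bot.mpr <| hfaith y fun Q =>
      Sylow.smul_eq_iff_mem_normalizer.mpr (Subgroup.le_normalizer ((Finset.mem_filter.mp (h Q)).2 hy))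
    have h1 := hRcard P b hb
    rw [hbot, Subgroup.card_bot] at h1
    have := Nat.one_lt_pow (show r - 1 ≠ 0 by omega) (show 1 < 5 by norm_num)
    omega
  have hinj : Set.InjOn (R c) L := by
    intro d hd e he hde
    by_contra hne'
    have hd' := (Finset.mem_filter.mp hd).2
    have he' := (Finset.mem_filter.mp he).2
    have hRde : R d e = R P b := hRuniq P b d e hb hne' hd' he'
    have hcd : c ≠ d := fun e1 => hc (e1 ▸ hd)
    have h1 : R c d = R d e := by
      refine (hRuniq c d d e hcd hne' inf_le_right ?_).symm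
      rw [hde]; exact inf_le_right
    exact hc (Finset.mem_filter.mpr ⟨Finset.mem_univ _, (hRde.symm.trans h1.symm).le.trans inf_le_left⟩)
  have h1 := Finset.card_le_card (show L.image (R c) ⊆ (Finset.univ.erase c).image (R c) from
    Finset.image_subset_image fun d hd => Finset.mem_erase.mpr ⟨fun e => hc (e ▸ hd), Finset.mem_univ _⟩)
  rw [Finset.card_image_of_injOn hinj] at h1
  exact absurd (h1.trans (hfour c)) (by omega)

/-- If all Sylow `5`-subgroups of `G` lie in `M`, these are the Sylow `5`-subgroups of `M`. -/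
theorem card_sylow_of_normal {p : ℕ} [Fact p.Prime] (M : Subgroup G) [M.Normal] (hM : ¬ p ∣ M.index) :
    Nat.card (Sylow p M) = Nat.card (Sylow p G) := by
  have hle : ∀ P : Sylow p G, (P : Subgroup G) ≤ M := by
    intro P
    have hc : ∀ x ∈ (P : Subgroup G), (QuotientGroup.mk' M x) = 1 := by
      intro x hx
      obtain ⟨k, hk⟩ := IsPGroup.iff_orderOf.mp P.2 ⟨x, hx⟩
      rw [Subgroup.orderOf_mk] at hk
      have h1 : orderOf (QuotientGroup.mk' M x) ∣ p ^ k := hk ▸ orderOf_map_dvd _ x
      have h2 : orderOf (QuotientGroup.mk' M x) ∣ M.index := orderOf_dvd_natCard _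
      exact orderOf_eq_one_iff.mp (Nat.eq_one_of_dvd_coprimes
        ((Nat.Prime.coprime_iff_not_dvd Fact.out).mpr hM |>.pow_left k) h1 h2)
    exact fun x hx => (QuotientGroup.eq_one_iff x).mp (hc x hx)
  refine (Nat.card_congr (Equiv.ofBijective (fun P : Sylow p G => P.subtype (hle P)) ⟨fun P Q h => ?_, ?_⟩)).symm
  · exact Sylow.subtype_injective h
  · intro Q
    obtain ⟨P, hP⟩ := Sylow.exists_comap_subtype_eq Q
    refine ⟨P, Sylow.ext ?_⟩
    show (P : Subgroup G).subgroupOf M = Q
    rw [← hP]; rfl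

set_option maxRecDepth 100000 in
theorem perm_four_comm : ∀ a b : Equiv.Perm (Fin 4), Equiv.Perm.sign a = 1 → Equiv.Perm.sign b = 1 →
    a ^ 4 = 1 → b ^ 4 = 1 → a * b = b * a := by decide

set_option maxRecDepth 100000 in
theorem perm_four_moves : ∀ a : Equiv.Perm (Fin 4), Equiv.Perm.sign a = 1 → a ^ 4 = 1 → a ≠ 1 →
    ∀ i, a i ≠ i := by decide

set_option maxRecDepth 100000 in
theorem perm_four_pow : ∀ a : Equiv.Perm (Fin 4), Equiv.Perm.sign a = 1 → a ^ 12 = 1 := by decide

set_option maxRecDepth 100000 in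
theorem sign_addRight_five : ∀ d : ZMod 5, Equiv.Perm.sign (Equiv.addRight d) = 1 := by decide

theorem units_int_pow : ∀ u : ℤˣ, u ^ 4 = 1 ∧ u ^ 5 = u := by decide

/-- The part of the argument in which the Sylow `5`-subgroups have order `5`. -/
theorem false_of_twentyOne (h21 : Nat.card (Sylow 5 G) = 21)
    (hfaith : ∀ g : G, (∀ Q : Sylow 5 G, g • Q = Q) → g = 1)
    (hmin : ∀ M : Subgroup G, M.Normal → ¬ 5 ∣ M.index → M = ⊤) : False := by
  classical
  have h5 : Fact (Nat.Prime 5) := ⟨by norm_num⟩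
  have h3 : Fact (Nat.Prime 3) := ⟨by norm_num⟩
  have h2 : Fact (Nat.Prime 2) := ⟨by norm_num⟩
  have := Fintype.ofFinite (Sylow 5 G)
  obtain ⟨P⟩ := (inferInstance : Nonempty (Sylow 5 G))
  have hP5 : Nat.card (P : Subgroup G) = 5 := card_eq_five_of_faithful h21 hfaith P
  set N := Subgroup.normalizer ((P : Subgroup G) : Set G) with hN
  have hNi : N.index = 21 := P.card_eq_index_normalizer.symm.trans h21
  have hPc : IsCyclic (P : Subgroup G) := isCyclic_of_prime_card (p := 5) hP5
  -- Burnside
  have hNC : ¬ N ≤ Subgroup.centralizer ((P : Subgroup G) : Set G) := by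
    intro hc
    have hcomp := MonoidHom.ker_transferSylow_isComplement' P hc
    have hKn := MonoidHom.normal_ker (MonoidHom.transferSylow P hc)
    set K := (MonoidHom.transferSylow P hc).ker
    have hKidx : K.index = 5 := hcomp.symm.index_eq_card.trans hP5
    have hPK : (Nat.card K).Coprime 5 := by
      rw [Nat.coprime_comm, Nat.Prime.coprime_iff_not_dvd (by norm_num)]
      exact MonoidHom.not_dvd_card_ker_transferSylow P hc
    obtain ⟨T⟩ := (inferInstance : Nonempty (Sylow 3 K))
    set Q : Subgroup G := (T : Subgroup K).map K.subtype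
    have hsup := Sylow.normalizer_sup_eq_top T
    have h5N : 5 ∣ Nat.card (Subgroup.normalizer (Q : Set G)) := by
      by_contra hnd
      have hi : ¬ 5 ∣ (Nat.card (Subgroup.normalizer (Q : Set G)) * Nat.card K) := by
        refine Nat.Prime.not_dvd_mul (by norm_num) hnd fun h => ?_
        exact (Nat.Prime.coprime_iff_not_dvd (by norm_num)).mp hPK.symm h
      apply hi
      have h1 : Nat.card G ∣ Nat.card (Subgroup.normalizer (Q : Set G)) * Nat.card K := by
        have hmul := Subgroup.card_mul_index (K.subgroupOf (Subgroup.normalizer (Q : Set G)))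
        have h4 : K.relIndex (Subgroup.normalizer (Q : Set G)) = K.index := by
          rw [← Subgroup.relIndex_sup_right (Subgroup.normalizer (Q : Set G)) K, hsup, Subgroup.relIndex_top_right]
        rw [← Subgroup.relIndex, h4] at hmul
        rw [← K.card_mul_index, ← hmul, mul_comm (Nat.card K) K.index, mul_comm _ (K.index)]
        rw [mul_assoc]
        exact mul_dvd_mul_left _ (dvd_mul_left _ _)
      exact ((hP5 ▸ (P : Subgroup G).card_subgroup_dvd_card : 5 ∣ Nat.card G)).trans h1
    obtain ⟨u, hu⟩ := exists_prime_orderOf_dvd_card' (G := Subgroup.normalizer (Q : Set G)) 5 h5N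
    obtain ⟨P', hP'⟩ := (IsPGroup.of_card (G := Subgroup.zpowers (u : G)) (n := 1)
      (by rw [Nat.card_zpowers, Subgroup.orderOf_coe, hu, pow_one])).exists_le_sylow
    have hP'5 : Nat.card (P' : Subgroup G) = 5 := card_eq_five_of_faithful h21 hfaith P'
    have hP'u : (P' : Subgroup G) = Subgroup.zpowers (u : G) := (Subgroup.eq_of_le_of_card_ge hP'
      (by rw [hP'5, Nat.card_zpowers, Subgroup.orderOf_coe, hu])).symm
    have hP'Q : (P' : Subgroup G) ≤ Subgroup.normalizer (Q : Set G) := hP'u ▸ Subgroup.zpowers_le.mpr u.2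
    set X := Q ⊔ (P' : Subgroup G)
    have hQp : IsPGroup 3 Q := T.2.map _
    obtain ⟨b, hb⟩ := hQp.exists_card_eq
    have hQP : Disjoint Q (P' : Subgroup G) := IsPGroup.disjoint_of_ne 3 5 (by norm_num) _ _ hQp P'.2
    have hXcard : Nat.card X = 3 ^ b * 5 := by
      rw [← hb, ← hP'5, ← Nat.card_prod]
      symm
      refine Nat.card_congr (Equiv.ofBijective (fun z : Q × (P' : Subgroup G) =>
        (⟨z.1 * z.2, X.mul_mem (le_sup_left (b := (P' : Subgroup G)) z.1.2) (le_sup_right (a := Q) z.2.2)⟩ : X))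
        ⟨fun z w h => Subgroup.mul_injective_of_disjoint hQP (congrArg Subtype.val h), fun ⟨x, hx⟩ => ?_⟩)
      have hx' : x ∈ (Q : Set G) * ((P' : Subgroup G) : Set G) := by
        rw [← Subgroup.coe_mul_of_right_le_normalizer_left Q (P' : Subgroup G) hP'Q]; exact hx
      obtain ⟨q, hq, y, hy, rfl⟩ := Set.mem_mul.mp hx'
      exact ⟨(⟨q, hq⟩, ⟨y, hy⟩), rfl⟩
    have hPX : (P' : Subgroup G) ≤ X := le_sup_right
    set PX : Sylow 5 X := P'.subtype hPX
    have hn := PX.card_eq_index_normalizer
    have hNX : Subgroup.normalizer ((PX : Subgroup X) : Set X)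
        ≤ (Subgroup.normalizer ((P' : Subgroup G) : Set G)).subgroupOf X := by
      intro x hx
      rw [Subgroup.mem_subgroupOf, Subgroup.mem_normalizer_iff]
      intro y
      constructor
      · intro hy
        exact (Subgroup.mem_normalizer_iff.mp hx ⟨y, hPX hy⟩).mp hy
      · intro hy
        have hyX : y ∈ X := by
          have := X.mul_mem (X.mul_mem (X.inv_mem x.2) (hPX hy)) x.2
          simpa [mul_assoc] using this
        exact (Subgroup.mem_normalizer_iff.mp hx ⟨y, hyX⟩).mpr hy
    have hmod := card_sylow_modEq_one 5 X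
    have hn21 : Nat.card (Sylow 5 X) ≤ 21 := by
      rw [← h21]
      refine Nat.card_le_card_of_injective (fun S => Classical.choose (Sylow.exists_comap_subtype_eq S)) fun S S' h => ?_
      refine Sylow.ext ?_
      rw [← Classical.choose_spec (Sylow.exists_comap_subtype_eq S), ← Classical.choose_spec (Sylow.exists_comap_subtype_eq S')]
      exact congrArg (fun R : Sylow 5 G => (R : Subgroup G).comap X.subtype) h
    have hdvd : Nat.card (Sylow 5 X) ∣ 3 ^ b := by
      have h1 := PX.card_dvd_index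
      have h2 := (PX : Subgroup X).card_mul_index
      have h3 : Nat.card (PX : Subgroup X) = 5 :=
        (Nat.card_congr (Subgroup.subgroupOfEquivOfLe hPX).toEquiv).trans hP'5
      rw [h3, hXcard, mul_comm (3 ^ b) 5] at h2
      rwa [Nat.eq_of_mul_eq_mul_left (by norm_num) h2] at h1
    obtain ⟨i, -, hi⟩ := (Nat.dvd_prime_pow (by norm_num)).mp hdvd
    -- the count is divisible by three
    have hthree : 3 ∣ Nat.card (Sylow 5 X) := by
      rw [hn]
      refine dvd_trans ?_ (Subgroup.index_dvd_of_le hNX)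
      rw [← Subgroup.relIndex]
      by_contra hnd
      have hXN : 3 ^ b ∣ Nat.card (Subgroup.normalizer ((P' : Subgroup G) : Set G)) := by
        have h1 := ((Subgroup.normalizer ((P' : Subgroup G) : Set G)).subgroupOf X).card_mul_index
        rw [← Subgroup.relIndex] at h1
        have h2 : 3 ^ b ∣ Nat.card ((Subgroup.normalizer ((P' : Subgroup G) : Set G)).subgroupOf X) := by
          refine ((Nat.Prime.coprime_iff_not_dvd (by norm_num)).mpr hnd |>.pow_left b).dvd_of_dvd_mul_right ?_
          rw [h1, hXcard]; exact dvd_mul_right _ _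
        exact h2.trans ((Subgroup.card_comap_dvd_of_injective _ X.subtype X.subtype_injective))
      have hGc : 3 ^ (b + 1) ∣ Nat.card G := by
        have hi' : (Subgroup.normalizer ((P' : Subgroup G) : Set G)).index = 21 := P'.card_eq_index_normalizer.symm.trans h21
        rw [← (Subgroup.normalizer ((P' : Subgroup G) : Set G)).card_mul_index, hi', pow_succ]
        exact Nat.mul_dvd_mul hXN (by norm_num)
      have hKc : 3 ^ (b + 1) ∣ Nat.card K := by
        refine ((Nat.Coprime.pow_left (b + 1) (by norm_num : Nat.Coprime 3 5))).dvd_of_dvd_mul_right (?_ : 3 ^ (b + 1) ∣ Nat.card K * 5)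
        rw [← hKidx, K.card_mul_index]; exact hGc
      have hTc : Nat.card (T : Subgroup K) = 3 ^ b := by
        rw [← hb]; exact (Subgroup.card_map_of_injective K.subtype_injective).symm
      apply T.not_dvd_index
      have h1 := (T : Subgroup K).card_mul_index
      rw [hTc] at h1
      rw [← h1, pow_succ] at hKc
      exact Nat.dvd_of_mul_dvd_mul_left (by positivity) hKc
    rw [hi] at hmod hn21 hthree
    unfold Nat.ModEq at hmod
    rcases i with _ | _ | _ | i
    · norm_num at hthree
    · norm_num at hmod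
    · norm_num at hmod
    · have : 3 ^ 3 ≤ 3 ^ (i + 1 + 1 + 1) := Nat.pow_le_pow_right (by norm_num) (by omega)
      omega
  -- coordinates on the other twenty points
  obtain ⟨g, hg⟩ := hPc.exists_generator
  have hgord : orderOf (g : G) = 5 := by
    rw [Subgroup.orderOf_coe, orderOf_eq_card_of_forall_mem_zpowers hg, hP5]
  have hgP : ∀ x ∈ (P : Subgroup G), ∃ k : ℕ, x = (g : G) ^ k := fun x hx => by
    obtain ⟨k, hk⟩ := mem_powers_iff_mem_zpowers.mpr (hg ⟨x, hx⟩)
    exact ⟨k, by rw [← Subgroup.coe_pow]; exact (congrArg Subtype.val hk).symm⟩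
  let pw : ZMod 5 → G := fun i => (g : G) ^ i.val
  have hpw : ∀ n : ℕ, pw (n : ZMod 5) = (g : G) ^ n := fun n => by
    show (g : G) ^ (n : ZMod 5).val = (g : G) ^ n
    conv_rhs => rw [← pow_mod_orderOf, hgord]
    rw [ZMod.val_natCast]
  have hpwadd : ∀ i j, pw (i + j) = pw i * pw j := fun i j => by
    rw [← ZMod.natCast_zmod_val i, ← ZMod.natCast_zmod_val j, ← Nat.cast_add, hpw, hpw, hpw, pow_add]
  have hPfix : ∀ b : Sylow 5 G, b ≠ P → ∀ i j : ZMod 5, pw i • b = pw j • b → i = j := by
    intro b hb i j hij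
    by_contra hne
    have h1 : pw (j - i) • pw i • b = pw i • b := by
      rw [← mul_smul, ← hpwadd, sub_add_cancel, ← hij]
    have hne0 : j - i ≠ 0 := sub_ne_zero.mpr (Ne.symm hne)
    -- a non-identity element of `P` fixing a point lies in that Sylow subgroup
    set c := pw i • b
    have hmem : pw (j - i) ∈ (P : Subgroup G) := Subgroup.pow_mem _ g.2 _
    have hmem' : pw (j - i) ∈ (c : Subgroup G) :=
      ((P.2.inf_normalizer_sylow c).le ⟨hmem, Sylow.smul_eq_iff_mem_normalizer.mp h1⟩).2
    have hne1 : pw (j - i) ≠ 1 := fun e => hne0 (by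
      have h1 := orderOf_dvd_of_pow_eq_one e
      rw [hgord] at h1
      rw [← ZMod.natCast_zmod_val (j - i), ZMod.natCast_eq_zero_iff]; exact h1)
    have hord : orderOf (pw (j - i)) = 5 := orderOf_eq_prime (by
      show ((g : G) ^ _) ^ 5 = 1
      have h5g : (g : G) ^ 5 = 1 := orderOf_dvd_iff_pow_eq_one.mp (by rw [hgord])
      rw [← pow_mul, mul_comm, pow_mul, h5g, one_pow]) hne1
    have h2 : (P : Subgroup G) = Subgroup.zpowers (pw (j - i)) := (Subgroup.eq_of_le_of_card_ge
      (Subgroup.zpowers_le.mpr hmem) (by rw [hP5, Nat.card_zpowers, hord])).symm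
    have hc : c = P := Sylow.ext (Subgroup.eq_of_le_of_card_ge
      (h2 ▸ Subgroup.zpowers_le.mpr hmem' : (P : Subgroup G) ≤ c)
      (by rw [card_eq_five_of_faithful h21 hfaith c, hP5])).symm
    apply hb
    have h3 : pw i • P = P := Sylow.smul_eq_iff_mem_normalizer.mpr
      (Subgroup.le_normalizer (Subgroup.pow_mem _ g.2 _))
    exact smul_left_cancel (pw i) (hc.trans h3.symm)
  let Y := {c : Sylow 5 G // c ≠ P}
  let act : MulAction (P : Subgroup G) Y :=
    { smul := fun x c => ⟨(x : G) • c.1, fun e => c.2 (by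
        rw [← inv_smul_smul (x : G) c.1, e]
        exact Sylow.smul_eq_iff_mem_normalizer.mpr (Subgroup.le_normalizer ((P : Subgroup G).inv_mem x.2)))⟩
      one_smul := fun c => Subtype.ext (one_smul G c.1)
      mul_smul := fun x y c => Subtype.ext (mul_smul (x : G) y c.1) }
  let O := MulAction.orbitRel.Quotient (P : Subgroup G) Y
  let rep : O → Sylow 5 G := fun o => (Quotient.out o).1
  have hrep : ∀ o, rep o ≠ P := fun o => (Quotient.out o).2
  let e0 : O × ZMod 5 → Y := fun q => ⟨pw q.2 • rep q.1, fun e => hrep q.1 (by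
    have h3 : pw q.2 • P = P := Sylow.smul_eq_iff_mem_normalizer.mpr
      (Subgroup.le_normalizer (Subgroup.pow_mem _ g.2 _))
    exact smul_left_cancel (pw q.2) (e.trans h3.symm))⟩
  have he0 : Function.Bijective e0 := by
    refine ⟨fun q q' h => ?_, fun y => ?_⟩
    · have h' : pw q.2 • rep q.1 = pw q'.2 • rep q'.1 := congrArg Subtype.val h
      have ho : q.1 = q'.1 := by
        rw [← Quotient.out_eq q.1, ← Quotient.out_eq q'.1]
        refine Quotient.sound ?_
        refine ⟨(⟨pw q.2, Subgroup.pow_mem _ g.2 _⟩ : (P : Subgroup G))⁻¹ * ⟨pw q'.2, Subgroup.pow_mem _ g.2 _⟩, Subtype.ext ?_⟩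
        show ((pw q.2)⁻¹ * pw q'.2) • rep q'.1 = rep q.1
        rw [mul_smul, ← h', inv_smul_smul]
      rw [ho] at h'
      exact Prod.ext ho (hPfix _ (hrep _) _ _ h')
    · let o : O := Quotient.mk'' y
      obtain ⟨x, hx⟩ : y ∈ MulAction.orbit (P : Subgroup G) (Quotient.out o) :=
        MulAction.orbitRel_apply.mp (Quotient.exact' (Quotient.out_eq' o).symm)
      obtain ⟨k, hk⟩ := hgP x x.2
      refine ⟨(o, (k : ZMod 5)), Subtype.ext ?_⟩
      show pw k • rep o = y.1
      rw [hpw, ← hk]
      exact congrArg Subtype.val hx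
  let e := Equiv.ofBijective e0 he0
  have := Fintype.ofFinite O
  have hO : Fintype.card O = 4 := by
    have h1 := Fintype.card_congr e
    rw [Fintype.card_prod, ZMod.card, Fintype.card_subtype_compl, Fintype.card_subtype_eq,
      ← Nat.card_eq_fintype_card (α := Sylow 5 G), h21] at h1
    omega
  -- the data of an element of the normalizer
  have hdata : ∀ n : N, ∃ (k : ZMod 5) (σ : O → O) (c : O → ZMod 5),
      (n : G) * (g : G) * (n : G)⁻¹ = pw k ∧
      ∀ o i, (n : G) • (pw i • rep o) = pw (k * i + c o) • rep (σ o) := by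
    intro n
    obtain ⟨k, hk⟩ := hgP _ ((Subgroup.mem_normalizer_iff.mp n.2 g).mp g.2)
    have hfix : (n : G) • P = P := Sylow.smul_eq_iff_mem_normalizer.mpr n.2
    have hy : ∀ o, (n : G) • rep o ≠ P := fun o h => hrep o (smul_left_cancel (n : G) (h.trans hfix.symm))
    let q : O → O × ZMod 5 := fun o => e.symm ⟨(n : G) • rep o, hy o⟩
    have hq : ∀ o, pw (q o).2 • rep (q o).1 = (n : G) • rep o := fun o =>
      congrArg Subtype.val (e.apply_symm_apply ⟨(n : G) • rep o, hy o⟩)
    refine ⟨(k : ZMod 5), fun o => (q o).1, fun o => (q o).2, by rw [hpw, ← hk], fun o i => ?_⟩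
    rw [hpwadd, mul_smul, hq, ← mul_smul, ← mul_smul]
    congr 1
    rw [← ZMod.natCast_zmod_val i, ← Nat.cast_mul, hpw, hpw, pow_mul, ← hk, conj_pow, inv_mul_cancel_right]
  choose κ σ c hκ hσ using hdata
  have huniq : ∀ o o' i i', pw i • rep o = pw i' • rep o' → o = o' ∧ i = i' := fun o o' i i' h =>
    Prod.ext_iff.mp (he0.1 (a₁ := (o, i)) (a₂ := (o', i')) (Subtype.ext h))
  have hpw1 : pw 0 = 1 := by show (g : G) ^ (0 : ZMod 5).val = 1; simp
  have hσmul : ∀ m n : N, ∀ o, σ (m * n) o = σ m (σ n o) := by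
    intro m n o
    have h1 := hσ (m * n) o 0
    rw [Subgroup.coe_mul, mul_smul, hσ n o 0, hσ m] at h1
    exact (huniq _ _ _ _ h1).1.symm
  have hσone : ∀ o, σ 1 o = o := by
    intro o
    have h1 := hσ 1 o 0
    rw [Subgroup.coe_one, one_smul] at h1
    exact (huniq _ _ _ _ h1).1.symm
  let τ : N →* Equiv.Perm O :=
    { toFun := fun n => ⟨σ n, σ n⁻¹, fun o => by rw [← hσmul, inv_mul_cancel, hσone],
        fun o => by rw [← hσmul, mul_inv_cancel, hσone]⟩
      map_one' := Equiv.ext hσone
      map_mul' := fun m n => Equiv.ext (hσmul m n) }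
  -- all permutations are even
  let π := MulAction.toPermHom G (Sylow 5 G)
  have heven : ∀ x : G, Equiv.Perm.sign (π x) = 1 := by
    intro x
    by_contra hx
    set s := Equiv.Perm.sign.comp π
    have h1 : s.ker = ⊤ := by
      refine hmin _ (MonoidHom.normal_ker s) fun h5d => ?_
      rw [Subgroup.index_ker] at h5d
      have h6 := h5d.trans (Subgroup.card_subgroup_dvd_card s.range)
      rw [Nat.card_eq_fintype_card, Fintype.card_units_int] at h6
      norm_num at h6
    have h2 : x ∈ s.ker := by rw [h1]; exact Subgroup.mem_top x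
    exact hx h2
  have hτsign : ∀ n : N, Equiv.Perm.sign (τ n) = 1 := by
    intro n
    have hk0 : κ n ≠ 0 := by
      intro h0
      have h1 := hκ n
      rw [h0, hpw1, conj_eq_one_iff] at h1
      rw [h1, orderOf_one] at hgord
      omega
    let f : O → Equiv.Perm (ZMod 5) := fun o => (Equiv.mulLeft₀ (κ n) hk0).trans (Equiv.addRight (c n o))
    let r : Equiv.Perm (O × ZMod 5) := Equiv.prodCongrLeft (fun _ => τ n) * Equiv.prodCongrRight f
    have hr : ∀ q, ((e (r q) : Y) : Sylow 5 G) = (n : G) • (e q : Y).1 := by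
      rintro ⟨o, i⟩
      show pw (κ n * i + c n o) • rep (σ n o) = (n : G) • pw i • rep o
      rw [hσ]
    have hY : ∀ y : Sylow 5 G, (y ≠ P ↔ π (n : G) y ≠ P) := fun y => by
      have hfix : (n : G) • P = P := Sylow.smul_eq_iff_mem_normalizer.mpr n.2
      show y ≠ P ↔ (n : G) • y ≠ P
      rw [not_iff_not]
      exact ⟨fun h => h ▸ hfix, fun h => smul_left_cancel (n : G) (h.trans hfix.symm)⟩
    have h1 : Equiv.Perm.sign (Equiv.Perm.subtypePerm (p := fun y : Sylow 5 G => y ≠ P) (π n) fun y => (hY y).symm) = Equiv.Perm.sign (π n) :=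
      Equiv.Perm.sign_subtypePerm _ _ fun y hy hy' => hy (by
        show (n : G) • y = y
        rw [hy']; exact Sylow.smul_eq_iff_mem_normalizer.mpr n.2)
    have h2 : Equiv.Perm.sign r = Equiv.Perm.sign (Equiv.Perm.subtypePerm (p := fun y : Sylow 5 G => y ≠ P) (π n) fun y => (hY y).symm) :=
      Equiv.Perm.sign_eq_sign_of_equiv _ _ e fun q => Subtype.ext (hr q)
    rw [h1, heven, map_mul, Equiv.Perm.sign_prodCongrLeft, Equiv.Perm.sign_prodCongrRight,
      Finset.prod_const, Finset.card_univ, ZMod.card] at h2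
    have h4 : ∏ o : O, Equiv.Perm.sign (f o) = 1 := by
      have hadd := sign_addRight_five
      have hf : ∀ o, Equiv.Perm.sign (f o) = Equiv.Perm.sign (Equiv.mulLeft₀ (κ n) hk0) := fun o => by
        rw [Equiv.Perm.sign_trans, hadd, one_mul]
      rw [Finset.prod_congr rfl fun o _ => hf o, Finset.prod_const, Finset.card_univ, hO]
      exact (units_int_pow _).1
    rw [h4, mul_one] at h2
    rw [← (units_int_pow (Equiv.Perm.sign (τ n))).2]
    exact h2
  -- the action on `P`
  let χ : N →* MulAut (P : Subgroup G) := (P : Subgroup G).normalizerMonoidHom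
  have hχker : ∀ n : N, χ n = 1 → (n : G) * (g : G) * (n : G)⁻¹ = (g : G) := fun n hn =>
    congrArg Subtype.val (DFunLike.congr_fun hn g)
  obtain ⟨S₀⟩ := (inferInstance : Nonempty (Sylow 2 N))
  have hS₀i : ¬ 2 ∣ ((S₀ : Subgroup N).map N.subtype).index := by
    rw [Subgroup.index_map_subtype, hNi]
    exact Nat.prime_two.not_dvd_mul S₀.not_dvd_index (by norm_num)
  let S : Sylow 2 G := (S₀.2.map N.subtype).toSylow hS₀i
  have hSN : (S : Subgroup G) ≤ N := Subgroup.map_subtype_le _
  let ι : (S : Subgroup G) →* N := Subgroup.inclusion hSN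
  have hinj : ∀ s, τ (ι s) = 1 → χ (ι s) = 1 → s = 1 := by
    intro s hτ hχ
    have hk : κ (ι s) = 1 := by
      by_contra hne
      have h1 := hκ (ι s)
      rw [hχker _ hχ] at h1
      obtain ⟨o⟩ : Nonempty O := Fintype.card_pos_iff.mp (by omega)
      have h2 : pw 1 • rep o = pw (κ (ι s)) • rep o := by
        rw [← h1, show (1 : ZMod 5) = ((1 : ℕ) : ZMod 5) from rfl, hpw, pow_one]
      exact hne (hPfix _ (hrep o) _ _ h2).symm
    have hiter : ∀ (j : ℕ) o i, ((s : G) ^ j) • (pw i • rep o) = pw (i + j * c (ι s) o) • rep o := by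
      intro j o i
      induction j with
      | zero => simp
      | succ j ih =>
        rw [pow_succ', mul_smul, ih]
        show ((ι s : N) : G) • _ = _
        rw [hσ, hk, show σ (ι s) o = o from congrArg (fun p : Equiv.Perm O => p o) hτ]
        congr 2
        push_cast; ring
    have h5 : (s : G) ^ 5 = 1 := by
      refine hfaith _ fun Q => ?_
      by_cases hQ : Q = P
      · subst hQ
        exact Sylow.smul_eq_iff_mem_normalizer.mpr (N.pow_mem (hSN s.2) 5)
      · obtain ⟨⟨o, i⟩, hq⟩ := he0.2 ⟨Q, hQ⟩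
        have hq' : pw i • rep o = Q := congrArg Subtype.val hq
        rw [← hq', hiter]
        congr 2
        rw [show ((5 : ℕ) : ZMod 5) = 0 from rfl, zero_mul, add_zero]
    obtain ⟨j, hj⟩ := IsPGroup.iff_orderOf.mp S.2 s
    rw [← orderOf_eq_one_iff]
    refine Nat.eq_one_of_dvd_coprimes (Nat.Coprime.pow_left j (by norm_num : Nat.Coprime 2 5)) (hj ▸ dvd_rfl) ?_
    exact orderOf_dvd_of_pow_eq_one (Subtype.ext (by simpa using h5))
  -- facts on permutations of four points
  have hperm := And.intro perm_four_comm perm_four_moves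
  let eO : O ≃ Fin 4 := Fintype.equivFinOfCardEq hO
  let τ' : (S : Subgroup G) →* Equiv.Perm (Fin 4) := (eO.permCongrHom.toMonoidHom.comp τ).comp ι
  have hτ'sign : ∀ s, Equiv.Perm.sign (τ' s) = 1 := fun s => by
    show Equiv.Perm.sign (eO.permCongr (τ (ι s))) = 1
    rw [Equiv.Perm.sign_permCongr, hτsign]
  have h24 := perm_four_pow
  have hτ'4 : ∀ s, τ' s ^ 4 = 1 := fun s => by
    obtain ⟨j, hj⟩ := IsPGroup.iff_orderOf.mp S.2 s
    have h1 : orderOf (τ' s) ∣ Nat.gcd (2 ^ j) 12 :=
      Nat.dvd_gcd (hj ▸ orderOf_map_dvd τ' s) (orderOf_dvd_of_pow_eq_one (h24 _ (hτ'sign s)))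
    refine orderOf_dvd_iff_pow_eq_one.mp (h1.trans ?_)
    have h2 : Nat.gcd (2 ^ j) 12 ∣ 4 * 3 := Nat.gcd_dvd_right _ _
    have h3 : Nat.Coprime (Nat.gcd (2 ^ j) 12) 3 :=
      Nat.Coprime.coprime_dvd_left (Nat.gcd_dvd_left _ _) (Nat.Coprime.pow_left j (by norm_num))
    exact h3.dvd_of_dvd_mul_right h2
  have hAcomm : ∀ a b : MulAut (P : Subgroup G), a * b = b * a := by
    intro a b
    exact (IsCyclic.mulAutMulEquiv (P : Subgroup G)).injective (by rw [map_mul, map_mul, mul_comm])
  have hτ'one : ∀ s, τ' s = 1 → τ (ι s) = 1 := fun s hs => by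
    have h : eO.permCongrHom (τ (ι s)) = 1 := hs
    exact eO.permCongrHom.injective (h.trans (map_one _).symm)
  have hScomm : IsMulCommutative (S : Subgroup G) := by
    refine ⟨⟨fun s t => ?_⟩⟩
    rw [← mul_inv_eq_one]
    refine hinj _ (hτ'one _ ?_) ?_
    · rw [map_mul, map_inv, map_mul, map_mul, hperm.1 _ _ (hτ'sign s) (hτ'sign t) (hτ'4 s) (hτ'4 t), mul_inv_cancel]
    · simp only [map_mul, map_inv]
      rw [hAcomm (χ (ι s)), mul_inv_cancel]
  -- some element of `S` acts non-trivially on `P`
  obtain ⟨s₁, hs₁⟩ : ∃ s, χ (ι s) ≠ 1 := by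
    by_contra hall
    push Not at hall
    apply hNC
    have hker : χ.ker = (Subgroup.centralizer ((P : Subgroup G) : Set G)).subgroupOf N := (P : Subgroup G).normalizerMonoidHom_ker
    intro n hn
    have h1 : Nat.card χ.range ∣ 4 := by
      refine (Subgroup.card_subgroup_dvd_card _).trans ?_
      rw [Nat.card_congr (IsCyclic.mulAutMulEquiv (P : Subgroup G)).toEquiv, hP5, Nat.card_eq_fintype_card,
        ZMod.card_units]
    rw [← Subgroup.index_ker] at h1
    have h2 : (S₀ : Subgroup N) ≤ χ.ker := fun x hx => hall ⟨x, ⟨x, hx, rfl⟩⟩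
    have h3 := Subgroup.index_dvd_of_le h2
    have h4 : χ.ker.index = 1 := by
      obtain ⟨j, -, hj⟩ := (Nat.dvd_prime_pow Nat.prime_two).mp (show χ.ker.index ∣ 2 ^ 2 from h1)
      rcases j with _ | j
      · rw [hj, pow_zero]
      · exact absurd ((dvd_pow_self 2 (Nat.succ_ne_zero j)).trans (hj ▸ h3)) S₀.not_dvd_index
    have h5 : (⟨n, hn⟩ : N) ∈ χ.ker := by rw [Subgroup.index_eq_one.mp h4]; exact Subgroup.mem_top _
    rw [hker] at h5
    exact h5
  -- some element of `S` has only one fixed point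
  obtain ⟨s₂, hs₂⟩ : ∃ s, τ' s ≠ 1 := by
    by_contra hall
    push Not at hall
    have hS : IsCyclic (S : Subgroup G) := by
      have : NeZero (Nat.card (P : Subgroup G)) := ⟨Nat.card_pos.ne'⟩
      have hinj' : Function.Injective (χ.comp ι) := by
        rw [injective_iff_map_eq_one]
        exact fun s hs => hinj s (hτ'one s (hall s)) hs
      have : IsCyclic (MulAut (P : Subgroup G)) := by
        have : IsCyclic (ZMod (Nat.card (P : Subgroup G)))ˣ := by rw [hP5]; infer_instance
        exact isCyclic_of_surjective (IsCyclic.mulAutMulEquiv (P : Subgroup G)).symm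
          (IsCyclic.mulAutMulEquiv (P : Subgroup G)).symm.surjective
      exact isCyclic_of_injective (χ.comp ι) hinj'
    have hd2 : 2 ∣ Nat.card G := by
      by_contra hodd
      apply hs₁
      obtain ⟨j, hj⟩ := S.2.exists_card_eq
      have hs : s₁ = 1 := by
        rcases j with _ | j
        · have := (Nat.card_eq_one_iff_unique.mp (hj.trans (pow_zero 2))).1
          exact Subsingleton.elim _ _
        · exact absurd ((dvd_pow_self 2 (Nat.succ_ne_zero j)).trans (hj ▸ (S : Subgroup G).card_subgroup_dvd_card)) hodd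
      rw [hs, map_one, map_one]
    have hmf : (Nat.card G).minFac = 2 := (Nat.minFac_eq_two_iff _).mpr hd2
    have hc := hS.normalizer_le_centralizer hmf
    have hidx : (MonoidHom.transferSylow S hc).ker.index = Nat.card (S : Subgroup G) :=
      (MonoidHom.ker_transferSylow_isComplement' S hc).symm.index_eq_card
    obtain ⟨j, hj⟩ := S.2.exists_card_eq
    have h1 := hmin _ (MonoidHom.normal_ker (MonoidHom.transferSylow S hc)) (by
      rw [hidx, hj]
      intro h
      have := (Nat.prime_dvd_prime_iff_eq (by norm_num) Nat.prime_two).mp ((by norm_num : Nat.Prime 5).dvd_of_dvd_pow h)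
      omega)
    rw [h1, Subgroup.index_top] at hidx
    exact S.ne_bot_of_dvd_card hd2 (Subgroup.eq_bot_of_card_eq _ hidx.symm)
  have hfix : ∀ y : Sylow 5 G, (s₂ : G) • y = y → y = P := by
    intro y hy
    by_contra hyP
    obtain ⟨⟨o, i⟩, hq⟩ := he0.2 ⟨y, hyP⟩
    have hq' : pw i • rep o = y := congrArg Subtype.val hq
    have hy' : ((ι s₂ : N) : G) • y = y := hy
    rw [← hq', hσ] at hy'
    have h1 := (huniq _ _ _ _ hy').1
    refine hperm.2 _ (hτ'sign s₂) (hτ'4 s₂) hs₂ (eO o) ?_
    show eO (σ (ι s₂) (eO.symm (eO o))) = eO o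
    rw [eO.symm_apply_apply, h1]
  -- transfer
  let A : CommGroup (MulAut (P : Subgroup G)) :=
    { (inferInstance : Group (MulAut (P : Subgroup G))) with mul_comm := hAcomm }
  let φ : (S : Subgroup G) →* MulAut (P : Subgroup G) := χ.comp ι
  have hinv : ∀ (x : (S : Subgroup G)) (n : G), n ∈ Subgroup.normalizer ((S : Subgroup G) : Set G) →
      ∀ y : (S : Subgroup G), (y : G) = n⁻¹ * x * n → φ y = φ x := by
    intro x n hn y hy
    have hnN : n ∈ N := by
      refine Sylow.smul_eq_iff_mem_normalizer.mp ?_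
      apply hfix
      have hmem : n⁻¹ * s₂ * n ∈ (S : Subgroup G) := (Subgroup.mem_normalizer_iff''.mp hn s₂).mp s₂.2
      have h1 : (n⁻¹ * s₂ * n) • P = P := Sylow.smul_eq_iff_mem_normalizer.mpr (hSN hmem)
      rw [mul_smul, mul_smul, inv_smul_eq_iff] at h1
      exact h1
    show χ (ι y) = χ (ι x)
    have he : ι y = (⟨n, hnN⟩ : N)⁻¹ * ι x * ⟨n, hnN⟩ := Subtype.ext hy
    rw [he, map_mul, map_mul, map_inv, hAcomm (χ ⟨n, hnN⟩)⁻¹, inv_mul_cancel_right]
  have htr := transfer_of_invariant S hScomm φ hinv s₁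
  let θ := MonoidHom.transfer φ
  have hθ := hmin θ.ker (MonoidHom.normal_ker θ) (by
    rw [Subgroup.index_ker]
    intro h5
    have h6 := h5.trans (Subgroup.card_subgroup_dvd_card θ.range)
    rw [Nat.card_congr (IsCyclic.mulAutMulEquiv (P : Subgroup G)).toEquiv, hP5, Nat.card_eq_fintype_card,
      ZMod.card_units] at h6
    norm_num at h6)
  have hz : φ s₁ ^ (S : Subgroup G).index = 1 := htr.symm.trans (MonoidHom.mem_ker.mp (hθ ▸ Subgroup.mem_top _ : (s₁ : G) ∈ θ.ker))
  obtain ⟨j, hj⟩ := IsPGroup.iff_orderOf.mp S.2 s₁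
  refine hs₁ (orderOf_eq_one_iff.mp (Nat.eq_one_of_dvd_coprimes
    (Nat.Coprime.pow_left j (Nat.prime_two.coprime_iff_not_dvd.mpr S.not_dvd_index)) ?_ (orderOf_dvd_of_pow_eq_one hz)))
  exact hj ▸ orderOf_map_dvd φ s₁

/-- No finite group has exactly `21` Sylow `5`-subgroups. -/
theorem card_sylow_five_ne_twentyOne {G : Type*} [Group G] [Finite G] : Nat.card (Sylow 5 G) ≠ 21 := by
  induction' hn : Nat.card G using Nat.strong_induction_on with n ih generalizing G
  intro h21
  have : Fact (Nat.Prime 5) := ⟨by norm_num⟩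
  set K := (MulAction.toPermHom G (Sylow 5 G)).ker
  by_cases hK : K = ⊥
  · refine false_of_twentyOne h21 (fun g hg => ?_) fun M hM hMi => ?_
    · have : g ∈ K := MonoidHom.mem_ker.mpr (Equiv.ext hg)
      rwa [hK, Subgroup.mem_bot] at this
    · by_contra hne
      refine ih (Nat.card M) (hn ▸ lt_of_le_of_ne (Subgroup.card_le_card_group M) fun h => hne (Subgroup.eq_top_of_card_eq M h))
        rfl ((card_sylow_of_normal M hMi).trans h21)
  · have hlt : Nat.card (G ⧸ K) < n := by
      rw [← hn, ← K.card_mul_index]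
      exact lt_mul_left (Nat.pos_of_ne_zero Subgroup.index_ne_zero_of_finite) ((Subgroup.one_lt_card_iff_ne_bot K).mpr hK)
    refine ih _ hlt rfl ?_
    obtain ⟨P⟩ := (inferInstance : Nonempty (Sylow 5 G))
    let π := QuotientGroup.mk' K
    have hπ := QuotientGroup.mk'_surjective K
    let Q : Sylow 5 (G ⧸ K) := P.mapSurjective hπ
    refine Q.card_eq_index_normalizer.trans (Eq.trans ?_ h21)
    refine Eq.trans ?_ P.card_eq_index_normalizer.symm
    have hKN : ∀ R : Sylow 5 G, K ≤ Subgroup.normalizer ((R : Subgroup G) : Set G) := fun R x hx =>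
      Sylow.smul_eq_iff_mem_normalizer.mp (congrArg (fun f : Equiv.Perm (Sylow 5 G) => f R) (MonoidHom.mem_ker.mp hx))
    have he : (Subgroup.normalizer ((Q : Subgroup (G ⧸ K)) : Set (G ⧸ K))).comap π
        = Subgroup.normalizer ((P : Subgroup G) : Set G) := by
      refine le_antisymm (fun x hx => ?_) (fun x hx => ?_)
      · set W := (P : Subgroup G) ⊔ K
        have hW : W ≤ Subgroup.normalizer ((P : Subgroup G) : Set G) := sup_le Subgroup.le_normalizer (hKN P)
        have hcomap : (Q : Subgroup (G ⧸ K)).comap π = W := by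
          rw [show (Q : Subgroup (G ⧸ K)) = (P : Subgroup G).map π from rfl, Subgroup.comap_map_eq,
            QuotientGroup.ker_mk']
        have hxP : ((x • P : Sylow 5 G) : Subgroup G) ≤ W := by
          intro y hy
          rw [Sylow.coe_subgroup_smul, Subgroup.mem_pointwise_smul_iff_inv_smul_mem, ← map_inv,
            MulAut.smul_def, MulAut.conj_apply, inv_inv] at hy
          rw [← hcomap, Subgroup.mem_comap]
          have h1 : π (x⁻¹ * y * x) ∈ (Q : Subgroup (G ⧸ K)) := ⟨_, hy, rfl⟩
          have h2 := (Subgroup.mem_normalizer_iff.mp hx _).mp h1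
          rw [← map_inv, ← map_mul, ← map_mul] at h2
          simpa [mul_assoc] using h2
        refine Sylow.smul_eq_iff_mem_normalizer.mp ?_
        apply Sylow.ext
        refine Subgroup.eq_of_le_of_card_ge (fun y hy => (((x • P : Sylow 5 G).2.inf_normalizer_sylow P).le ⟨hy, hW (hxP hy)⟩).2) ?_
        exact (Nat.card_congr (Sylow.equiv P (x • P : Sylow 5 G)).toEquiv).le
      · rw [Subgroup.mem_comap, Subgroup.mem_normalizer_iff]
        intro y
        obtain ⟨y, rfl⟩ := hπ y
        rw [← map_inv, ← map_mul, ← map_mul]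
        show π y ∈ (P : Subgroup G).map π ↔ π (x * y * x⁻¹) ∈ (P : Subgroup G).map π
        rw [← Subgroup.mem_comap, ← Subgroup.mem_comap, Subgroup.comap_map_eq, QuotientGroup.ker_mk']
        have hxW : x ∈ Subgroup.normalizer (((P : Subgroup G) ⊔ K : Subgroup G) : Set G) := by
          rw [Subgroup.mem_normalizer_iff]
          intro z
          have hconj : ((P : Subgroup G) ⊔ K).map (MulAut.conj x).toMonoidHom = (P : Subgroup G) ⊔ K := by
            rw [Subgroup.map_sup]
            congr 1
            · exact congrArg (fun R : Sylow 5 G => (R : Subgroup G)) (Sylow.smul_eq_iff_mem_normalizer.mpr hx)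
            · exact Subgroup.Normal.map_conj_eq K x
          constructor
          · intro hz; rw [← hconj]; exact ⟨z, hz, rfl⟩
          · intro hz
            rw [← hconj] at hz
            obtain ⟨w, hw, hwz⟩ := hz
            have : w = z := (MulAut.conj x).injective hwz
            exact this ▸ hw
        exact Subgroup.mem_normalizer_iff.mp hxW y
    exact (Subgroup.index_comap_of_surjective _ hπ).symm.trans (congrArg Subgroup.index he)

end Cfsg.Agent.SmallOrder
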