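import Cfsg.Agent.SmallOrder.Basic
import Cfsg.Agent.OddLocal.NilBasics

/-!
There is no simple group of order `459648 = 2^7 · 3^3 · 7 · 19`.

Let `M` be the normaliser of a Sylow 19-subgroup `P`. Either `|M| = 4788`, and then the normaliser
of a subgroup of order 7 centralising `P` lies in `M`, which contradicts Sylow's congruence for 7;
or `|M| = 456`, and then a Sylow 2-subgroup `Q` of `M` is normalised by an element `r` outside
`M`, and an involution in `C_Q(P) ∩ C_Q(P)^r ∩ Z(Q)` gives a contradiction.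
-/

namespace Cfsg.Agent.SmallOrder

variable {G : Type*} [Group G] [Finite G] {p : ℕ} [hp : Fact p.Prime]

/-- The index of `N_H(P)` in `H` is congruent to one modulo `p`, for `P ≤ H` a Sylow subgroup. -/
theorem relIndex_normalizer_mod (P : Sylow p G) {H : Subgroup G} (hle : (P : Subgroup G) ≤ H) :
    (Subgroup.normalizer ((P : Subgroup G) : Set G)).relIndex H % p = 1 := by
  have h : (Subgroup.normalizer ((P : Subgroup G) : Set G)).relIndex H = Nat.card (Sylow p H) := by
    rw [(P.subtype hle).card_eq_index_normalizer, Subgroup.relIndex,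
      Subgroup.subgroupOf_normalizer_eq hle]
    rfl
  rw [h]
  exact (card_sylow_dvd_and_mod (P.subtype hle)).2

omit hp in
/-- If a subgroup containing `P` meets every coset of `N(P)`, it contains all conjugates of `P`. -/
theorem eq_top_of_relIndex_normalizer_eq [IsSimpleGroup G] (P : Subgroup G) (hP : P ≠ ⊥) {H : Subgroup G}
    (hle : P ≤ H) (h : (Subgroup.normalizer (P : Set G)).relIndex H =
      (Subgroup.normalizer (P : Set G)).index) : H = ⊤ := by
  set M := Subgroup.normalizer (P : Set G) with hM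
  let f : H ⧸ M.subgroupOf H → G ⧸ M := Quotient.map' Subtype.val (fun a b hab => by
    rw [QuotientGroup.leftRel_apply] at hab ⊢
    exact hab)
  have hinj : Function.Injective f := by
    rintro ⟨a⟩ ⟨b⟩ hab
    exact Quotient.sound' (QuotientGroup.leftRel_apply.mpr
      (show ((a : G))⁻¹ * b ∈ M from QuotientGroup.eq.mp hab))
  have hsurj := (hinj.bijective_of_nat_card_le (le_of_eq h.symm)).2
  have hsub : Subgroup.normalClosure (P : Set G) ≤ H := by
    refine Subgroup.closure_le H |>.mpr fun x hx => ?_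
    rw [Group.mem_conjugatesOfSet_iff] at hx
    obtain ⟨a, ha, hc⟩ := hx
    obtain ⟨g, rfl⟩ := isConj_iff.mp hc
    obtain ⟨q, hq⟩ := hsurj (QuotientGroup.mk g)
    induction q using Quotient.inductionOn' with
    | h b =>
      have hb : (b : G)⁻¹ * g ∈ M := QuotientGroup.eq.mp hq
      have h1 : ((b : G)⁻¹ * g) * a * ((b : G)⁻¹ * g)⁻¹ ∈ P :=
        (Subgroup.mem_normalizer_iff.mp hb a).mp ha
      have h2 := H.mul_mem (H.mul_mem b.2 (hle h1)) (H.inv_mem b.2)
      simpa [mul_assoc] using h2
  rcases (Subgroup.normalClosure_normal (s := (P : Set G))).eq_bot_or_eq_top with h1 | h1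
  · exact absurd (le_bot_iff.mp (fun x hx => h1 ▸ Subgroup.subset_normalClosure hx)) hP
  · exact top_le_iff.mp (h1 ▸ hsub)

omit [Finite G] in
theorem card_inf_mul_relIndex (M H : Subgroup G) :
    Nat.card ↥(M ⊓ H) * M.relIndex H = Nat.card H := by
  rw [Subgroup.relIndex, ← (M.subgroupOf H).card_mul_index,
    ← Subgroup.inf_subgroupOf_right, Nat.card_congr (Subgroup.subgroupOfEquivOfLe inf_le_right).toEquiv]

variable [IsSimpleGroup G]

/-- A proper subgroup containing the Sylow 19-subgroup lies in its normaliser, or meets it with index 96. -/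
theorem card459648_over (hc : Nat.card G = 459648) [Fact (Nat.Prime 19)] (P : Sylow 19 G) {H : Subgroup G}
    (hle : (P : Subgroup G) ≤ H) (hH : H ≠ ⊤) :
    H ≤ Subgroup.normalizer ((P : Subgroup G) : Set G) ∨
      (Nat.card H = 96 * Nat.card ↥(Subgroup.normalizer ((P : Subgroup G) : Set G) ⊓ H) ∧
        Nat.card (Sylow 19 G) = 1008) := by
  obtain ⟨hP, -, hn, hn1⟩ := sylow_arith (a := 1) (m := 24192) P (by rw [hc]; norm_num) (by norm_num)
  have hG : ¬ IsMulCommutative G := not_comm_of_not_prime (by rw [hc]; norm_num)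
  set M := Subgroup.normalizer ((P : Subgroup G) : Set G) with hM
  have hmod := relIndex_normalizer_mod P hle
  rw [← hM] at hmod
  have hcard := card_inf_mul_relIndex M H
  have hd19 : 19 ∣ Nat.card ↥(M ⊓ H) := by
    have h := Subgroup.card_dvd_of_le (le_inf Subgroup.le_normalizer hle : (P : Subgroup G) ≤ M ⊓ H)
    rwa [hP, pow_one] at h
  have hd : M.relIndex H ∣ 24192 := by
    refine Nat.dvd_of_mul_dvd_mul_left (show 0 < 19 by norm_num) ?_
    refine (mul_dvd_mul_right hd19 _).trans ?_
    rw [hcard, show 19 * 24192 = Nat.card G by rw [hc]]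
    exact H.card_subgroup_dvd_card
  have key : ∀ d ∈ Nat.divisors 24192, d % 19 = 1 → d = 1 ∨ d = 96 ∨ d = 1008 := by decide +kernel
  have hmem : ∀ {d : ℕ}, d ∣ 24192 → d ∈ Nat.divisors 24192 := fun h => Nat.mem_divisors.mpr ⟨h, by norm_num⟩
  have hidx : M.index = Nat.card (Sylow 19 G) := P.card_eq_index_normalizer.symm
  have hne : M.relIndex H ≠ M.index := fun e =>
    hH (eq_top_of_relIndex_normalizer_eq (P : Subgroup G)
      (P.ne_bot_of_dvd_card (by rw [hc]; norm_num)) hle e)
  have hlt : M.relIndex H ≤ M.index := by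
    rw [← Subgroup.relIndex_top_right]
    exact Subgroup.relIndex_le_of_le_right le_top (by rw [Subgroup.relIndex_top_right]; exact Subgroup.index_ne_zero_of_finite)
  have hn2 : Nat.card (Sylow 19 G) ≠ 1 := card_sylow_ne_one hG (by rw [hc]; norm_num)
  rcases key _ (hmem hd) hmod with e | e | e
  · exact Or.inl (Subgroup.relIndex_eq_one.mp e)
  · refine Or.inr ⟨by rw [← hcard, e, mul_comm], ?_⟩
    rcases key _ (hmem hn) hn1 with f | f | f
    · exact absurd f hn2
    · exact absurd (e.trans (f.symm.trans hidx.symm)) hne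
    · exact f
  · rcases key _ (hmem hn) hn1 with f | f | f
    · exact absurd f hn2
    · omega
    · exact absurd (e.trans (f.symm.trans hidx.symm)) hne

/-- The case of 96 Sylow 19-subgroups is impossible. -/
theorem card459648_sylow_ne_96 (hc : Nat.card G = 459648) [Fact (Nat.Prime 19)] :
    Nat.card (Sylow 19 G) ≠ 96 := by
  intro hn
  have hG : ¬ IsMulCommutative G := not_comm_of_not_prime (by rw [hc]; norm_num)
  have : Fact (Nat.Prime 7) := ⟨by norm_num⟩
  obtain ⟨P⟩ := (inferInstance : Nonempty (Sylow 19 G))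
  obtain ⟨hP, -, -, -⟩ := sylow_arith (a := 1) (m := 24192) P (by rw [hc]; norm_num) (by norm_num)
  rw [pow_one] at hP
  set M := Subgroup.normalizer ((P : Subgroup G) : Set G) with hM
  set C := Subgroup.centralizer ((P : Subgroup G) : Set G) with hC
  have hMc := card_normalizer_mul_card_sylow P
  rw [← hM, hn, hc] at hMc
  have hCM : C ≤ M := by
    intro x hx
    rw [hM, Subgroup.mem_normalizer_iff]
    intro y
    constructor
    · intro hy
      rwa [← (Subgroup.mem_centralizer_iff.mp hx y hy), mul_inv_cancel_right]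
    · intro hy
      have h := Subgroup.mem_centralizer_iff.mp hx _ hy
      have : x * y * x⁻¹ = y := by
        have := congrArg (fun z => x⁻¹ * z) h
        simpa [mul_assoc] using this.symm
      rwa [this] at hy
  have hrel : C.relIndex M ∣ 18 := relIndex_centralizer_dvd_sub_one _ hP
  have h7 : 7 ∣ Nat.card C := by
    have h := card_inf_mul_relIndex C M
    rw [inf_eq_left.mpr hCM] at h
    have h2 : 7 ∣ Nat.card C * C.relIndex M := h ▸ (by omega : 7 ∣ Nat.card M)
    refine ((Nat.Prime.dvd_mul (by norm_num)).mp h2).resolve_right fun h3 => ?_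
    have := h3.trans hrel
    norm_num at this
  obtain ⟨x, hx⟩ := exists_prime_orderOf_dvd_card' 7 h7
  have hX : Nat.card (Subgroup.zpowers (x : G)) = 7 ^ (Nat.card G).factorization 7 := by
    rw [Nat.card_zpowers, Subgroup.orderOf_coe, hx, hc,
      show (459648 : ℕ) = 7 ^ 1 * 65664 by norm_num, Nat.factorization_mul (by norm_num) (by norm_num)]
    simp [Nat.factorization_eq_zero_of_not_dvd (show ¬ 7 ∣ 65664 by norm_num),
      Nat.Prime.factorization_self (show Nat.Prime 7 by norm_num)]
  let S : Sylow 7 G := Sylow.ofCard (Subgroup.zpowers (x : G)) hX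
  set D := Subgroup.normalizer ((S : Subgroup G) : Set G) with hD
  have hPD : (P : Subgroup G) ≤ D := by
    refine le_trans ?_ (Subgroup.centralizer_le_normalizer _)
    intro y hy
    rw [Subgroup.mem_centralizer_iff]
    intro z hz
    have hxc : (x : G) ∈ Subgroup.centralizer ({y} : Set G) :=
      Subgroup.mem_centralizer_singleton_iff.mpr (Subgroup.mem_centralizer_iff.mp x.2 y hy).symm
    exact Subgroup.mem_centralizer_singleton_iff.mp (Subgroup.zpowers_le.mpr hxc hz)
  have hDM : D ≤ M := (card459648_over hc P hPD (normalizer_ne_top hG (by rw [hc]; norm_num) S)).resolve_right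
    fun h => by rw [hn] at h; omega
  have hSM : (S : Subgroup G) ≤ M := le_trans Subgroup.le_normalizer hDM
  have h1 := relIndex_normalizer_mod S hSM
  rw [← hD] at h1
  have h2 := Subgroup.relIndex_mul_index hDM
  have h3 : Nat.card (Sylow 7 G) % 7 = 1 := (card_sylow_dvd_and_mod S).2
  have h4 : Nat.card (Sylow 7 G) = D.index := S.card_eq_index_normalizer
  have h5 : M.index = 96 := P.card_eq_index_normalizer.symm.trans hn
  rw [h4, ← h2, h5, Nat.mul_mod, h1] at h3
  norm_num at h3

/-- The case of 1008 Sylow 19-subgroups is impossible. -/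
theorem card459648_sylow_ne_1008 (hc : Nat.card G = 459648) [Fact (Nat.Prime 19)] :
    Nat.card (Sylow 19 G) ≠ 1008 := by
  intro hn
  have hG : ¬ IsMulCommutative G := not_comm_of_not_prime (by rw [hc]; norm_num)
  have : Fact (Nat.Prime 2) := ⟨Nat.prime_two⟩
  obtain ⟨P⟩ := (inferInstance : Nonempty (Sylow 19 G))
  obtain ⟨hP, -, -, -⟩ := sylow_arith (a := 1) (m := 24192) P (by rw [hc]; norm_num) (by norm_num)
  rw [pow_one] at hP
  set M := Subgroup.normalizer ((P : Subgroup G) : Set G) with hM
  set C := Subgroup.centralizer ((P : Subgroup G) : Set G) with hC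
  have hMc := card_normalizer_mul_card_sylow P
  rw [← hM, hn, hc] at hMc
  have hM456 : Nat.card M = 456 := by omega
  obtain ⟨Q', hQ'⟩ := Sylow.exists_subgroup_card_pow_prime (G := M) 2 (n := 3) (by rw [hM456]; norm_num)
  set Q : Subgroup G := Q'.map M.subtype with hQdef
  have hQM : Q ≤ M := Subgroup.map_subtype_le _
  have hQ : Nat.card Q = 8 := by
    rw [hQdef, Subgroup.card_map_of_injective M.subtype_injective, hQ']; norm_num
  set T : Subgroup G := Q ⊓ C with hT
  -- `C` has index at most 2 in `Q`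
  have hTrel : C.relIndex Q ∣ 2 := by
    let φ : Q →* MulAut (P : Subgroup G) :=
      (P : Subgroup G).normalizerMonoidHom.comp (Subgroup.inclusion hQM)
    have hker : φ.ker = C.subgroupOf Q := by
      ext q
      rw [← MonoidHom.comap_ker, Subgroup.mem_comap, Subgroup.normalizerMonoidHom_ker]
      rfl
    have h := Subgroup.card_dvd_of_injective _ (QuotientGroup.kerLift_injective φ)
    rw [hker] at h
    have : IsCyclic (P : Subgroup G) := isCyclic_of_prime_card hP
    rw [IsCyclic.card_mulAut, hP, Nat.totient_prime (by norm_num), ← Subgroup.index] at h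
    have h8 : (C.subgroupOf Q).index ∣ Nat.card Q := Subgroup.index_dvd_card _
    rw [hQ] at h8
    exact (Nat.dvd_gcd h h8).trans (by norm_num)
  obtain ⟨R, hR, hQR⟩ := Sylow.exists_subgroup_card_pow_succ (p := 2) (n := 3)
    (show 2 ^ 4 ∣ Nat.card G by rw [hc]; norm_num) (H := Q) hQ
  have hQRn : (Q.subgroupOf R).Normal := by
    apply Subgroup.normal_of_index_eq_two
    have h := (Q.subgroupOf R).card_mul_index
    rw [Nat.card_congr (Subgroup.subgroupOfEquivOfLe hQR).toEquiv, hQ, hR] at h
    norm_num at h ⊢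
    omega
  have hRM : ¬ R ≤ M := fun h => by
    have := Subgroup.card_dvd_of_le h
    rw [hR, hM456] at this
    norm_num at this
  obtain ⟨r, hrR, hrM⟩ := SetLike.not_le_iff_exists.mp hRM
  have hrQ : ∀ y ∈ Q, r⁻¹ * y * r ∈ Q := fun y hy => by
    have h := hQRn.conj_mem ⟨y, hQR hy⟩ hy ⟨r⁻¹, R.inv_mem hrR⟩
    simpa [Subgroup.mem_subgroupOf] using h
  -- the conjugate centraliser
  set C' : Subgroup G := C.comap (MulAut.conj r⁻¹).toMonoidHom with hC'
  have hC'mem : ∀ y, y ∈ C' ↔ r⁻¹ * y * r ∈ C := fun y => by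
    simp [hC']
  have hCn : ∀ m ∈ M, ∀ y ∈ C, m * y * m⁻¹ ∈ C := by
    intro m hm y hy
    rw [hC, Subgroup.mem_centralizer_iff] at hy ⊢
    intro z hz
    have hz' : m⁻¹ * z * m ∈ (P : Subgroup G) :=
      (Subgroup.mem_normalizer_iff''.mp hm z).mp hz
    have := congrArg (fun w => m * w * m⁻¹) (hy _ hz')
    simpa [mul_assoc] using this
  have hC'rel : C'.relIndex Q = C.relIndex Q := by
    have e : Q.map (MulAut.conj r⁻¹).toMonoidHom = Q := by
      refine Subgroup.eq_of_le_of_card_ge ?_ (le_of_eq ?_)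
      · rintro _ ⟨y, hy, rfl⟩
        simpa [MulAut.conj_apply] using hrQ y hy
      · exact (Subgroup.card_map_of_injective (MulAut.conj r⁻¹).injective).symm
    rw [hC', Subgroup.relIndex_comap, e]
  set W : Subgroup G := Q ⊓ (C ⊓ C') with hW
  have hWne : W ≠ ⊥ := by
    intro e
    have h1 : (C ⊓ C').relIndex Q ≤ C.relIndex Q * C'.relIndex Q := Subgroup.relIndex_inf_le
    have h2 := card_inf_mul_relIndex (C ⊓ C') Q
    rw [inf_comm, ← hW, e, Subgroup.card_bot, one_mul, hQ] at h2
    have h3 : C.relIndex Q ≤ 2 := Nat.le_of_dvd (by norm_num) hTrel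
    rw [hC'rel] at h1
    nlinarith
  have hWn : (W.subgroupOf Q).Normal := by
    refine ⟨fun w hw q => ?_⟩
    rw [Subgroup.mem_subgroupOf] at hw ⊢
    refine Subgroup.mem_inf.mpr ⟨(q * w * q⁻¹).2, Subgroup.mem_inf.mpr ⟨?_, ?_⟩⟩
    · exact hCn q (hQM q.2) w (Subgroup.mem_inf.mp (Subgroup.mem_inf.mp hw).2).1
    · rw [hC'mem]
      have := hCn _ (hQM (hrQ q q.2)) _ ((hC'mem w).mp (Subgroup.mem_inf.mp (Subgroup.mem_inf.mp hw).2).2)
      simpa [mul_assoc] using this
  have hQp : IsPGroup 2 Q := IsPGroup.of_card (n := 3) (by rw [hQ]; norm_num)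
  have : Group.IsNilpotent Q := hQp.isNilpotent
  obtain ⟨t, htW, ht1, htc⟩ := OddLocal.exists_ne_one_mem_center_of_normal (W.subgroupOf Q) (by
    intro e
    rw [Subgroup.subgroupOf_eq_bot, disjoint_iff, inf_eq_left.mpr inf_le_left] at e
    exact hWne e)
  rw [Subgroup.mem_subgroupOf] at htW
  obtain ⟨-, htC, htC'⟩ := htW
  replace htC' : r⁻¹ * (t : G) * r ∈ C := (hC'mem _).mp htC'
  set H : Subgroup G := Subgroup.centralizer ({(t : G)} : Set G) with hHdef
  have hQH : Q ≤ H := fun q hq => Subgroup.mem_centralizer_singleton_iff.mpr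
    (congrArg Subtype.val (Subgroup.mem_center_iff.mp htc ⟨q, hq⟩))
  have hPH : (P : Subgroup G) ≤ H := fun y hy => Subgroup.mem_centralizer_singleton_iff.mpr
    (Subgroup.mem_centralizer_iff.mp htC y hy)
  have hH : H ≠ ⊤ := by
    intro e
    apply ht1
    have hz : (t : G) ∈ Subgroup.center G := Subgroup.mem_center_iff.mpr fun g =>
      Subgroup.mem_centralizer_singleton_iff.mp (e ▸ Subgroup.mem_top g : g ∈ H)
    rcases (inferInstance : (Subgroup.center G).Normal).eq_bot_or_eq_top with hb | hb
    · exact Subtype.ext (by rwa [hb, Subgroup.mem_bot] at hz)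
    · exact absurd ⟨⟨fun a b => (Subgroup.mem_center_iff.mp (hb ▸ Subgroup.mem_top b :
        b ∈ Subgroup.center G) a)⟩⟩ hG
  rcases card459648_over hc P hPH hH with hle | ⟨hcard, -⟩
  · -- `H` lies in `M` and contains the conjugate of `P` under `r`
    apply hrM
    rw [hM, Subgroup.mem_normalizer_iff]
    have key : ∀ y ∈ (P : Subgroup G), r * y * r⁻¹ ∈ (P : Subgroup G) := by
      intro y hy
      have hyH : r * y * r⁻¹ ∈ H := by
        rw [hHdef, Subgroup.mem_centralizer_singleton_iff]
        have := congrArg (fun w => r * w * r⁻¹) (Subgroup.mem_centralizer_iff.mp htC' y hy)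
        simpa [mul_assoc] using this
      have hpg : IsPGroup 19 (Subgroup.zpowers (r * y * r⁻¹)) := by
        refine (IsPGroup.map P.2 (MulAut.conj r).toMonoidHom).to_le (Subgroup.zpowers_le.mpr ?_)
        exact ⟨y, hy, by simp [MulAut.conj_apply]⟩
      have hmem : r * y * r⁻¹ ∈ Subgroup.zpowers (r * y * r⁻¹) ⊓ M :=
        ⟨Subgroup.mem_zpowers _, hle hyH⟩
      exact ((hpg.inf_normalizer_sylow P).le hmem).2
    have heq : (P : Subgroup G).map (MulAut.conj r).toMonoidHom = P := by
      refine Subgroup.eq_of_le_of_card_ge ?_ (le_of_eq ?_)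
      · rintro _ ⟨y, hy, rfl⟩
        simpa [MulAut.conj_apply] using key y hy
      · exact (Subgroup.card_map_of_injective (MulAut.conj r).injective).symm
    refine fun y => ⟨key y, fun hy => ?_⟩
    rw [← heq] at hy
    obtain ⟨z, hz, e⟩ := hy
    simp [MulAut.conj_apply] at e
    rwa [← e]
  · -- otherwise 2^8 divides the group order
    have h8 : 8 ∣ Nat.card ↥(M ⊓ H) := hQ ▸ Subgroup.card_dvd_of_le (le_inf hQM hQH)
    have h := H.card_subgroup_dvd_card
    rw [hcard, hc] at h
    have := (mul_dvd_mul_left 96 h8).trans h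
    norm_num at this

/-- No simple group has order 459648. -/
theorem card_ne_459648 : Nat.card G ≠ 459648 := by
  intro hc
  have : Fact (Nat.Prime 19) := ⟨by norm_num⟩
  have hG : ¬ IsMulCommutative G := not_comm_of_not_prime (by rw [hc]; norm_num)
  obtain ⟨P⟩ := (inferInstance : Nonempty (Sylow 19 G))
  obtain ⟨-, -, hn, hn1⟩ := sylow_arith (a := 1) (m := 24192) P (by rw [hc]; norm_num) (by norm_num)
  have key : ∀ d ∈ Nat.divisors 24192, d % 19 = 1 → d = 1 ∨ d = 96 ∨ d = 1008 := by decide +kernel
  rcases key _ (Nat.mem_divisors.mpr ⟨hn, by norm_num⟩) hn1 with f | f | f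
  · exact card_sylow_ne_one hG (by rw [hc]; norm_num) f
  · exact card459648_sylow_ne_96 hc f
  · exact card459648_sylow_ne_1008 hc f

end Cfsg.Agent.SmallOrder
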