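import Mathlib

/-!
For `n ≥ 11` there are at least two primes in `(n / 2, n]`.
-/

namespace Cfsg.Agent.SmallOrder

open Nat

theorem centralBinom_le_of_one_prime (m q : ℕ) (m_large : 2 < m) (hq : q.Prime) (hq' : m < q)
    (huniq : ∀ p : ℕ, p.Prime → m < p → p ≤ 2 * m → p = q) :
    centralBinom m ≤ (2 * m) ^ Nat.sqrt (2 * m) * 4 ^ (2 * m / 3) * (2 * m) := by
  have m2_pos : 1 ≤ 2 * m := by omega
  let S := {p ∈ Finset.range (2 * m / 3 + 1) | Nat.Prime p}
  let f x := x ^ m.centralBinom.factorization x
  have hqS : q ∉ S := fun h => by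
    have := Finset.mem_range.mp (Finset.mem_filter.mp h).1
    omega
  have hfq : f q ≤ 2 * m := pow_factorization_choose_le (by omega)
  have hC : centralBinom m ≤ f q * ∏ p ∈ S, f p := by
    rw [← Finset.prod_insert hqS]
    refine le_of_eq (Eq.trans (m.prod_pow_factorization_centralBinom).symm ?_)
    rcases le_or_gt q (2 * m) with hq2 | hq2
    · refine (Finset.prod_subset ?_ ?_).symm
      · intro x hx
        rw [Finset.mem_insert] at hx
        rw [Finset.mem_range]
        rcases hx with rfl | hx
        · omega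
        · have := Finset.mem_range.mp (Finset.mem_filter.mp hx).1; omega
      · intro x hx hxS
        by_cases hxp : x.Prime
        · have hxr := Finset.mem_range.mp hx
          simp only [Finset.mem_insert, S, Finset.mem_filter, Finset.mem_range, not_or, not_and] at hxS
          rcases le_or_gt x m with h | h
          · rw [factorization_centralBinom_of_two_mul_self_lt_three_mul m_large h, _root_.pow_zero]
            have := fun h' => hxS.2 h' hxp
            by_contra hc
            exact this (by omega)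
          · exact absurd (huniq x hxp h (by omega)) hxS.1
        · rw [factorization_eq_zero_of_not_prime m.centralBinom hxp, _root_.pow_zero]
    · rw [Finset.prod_insert hqS]
      have hq0 : m.centralBinom.factorization q = 0 := by
        rw [Nat.centralBinom]
        exact Nat.factorization_choose_eq_zero_of_lt hq2
      show _ = q ^ m.centralBinom.factorization q * _
      rw [hq0, _root_.pow_zero, one_mul]
      refine (Finset.prod_subset ?_ ?_).symm
      · intro x hx
        rw [Finset.mem_range]
        have := Finset.mem_range.mp (Finset.mem_filter.mp hx).1; omega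
      · intro x hx hxS
        by_cases hxp : x.Prime
        · have hxr := Finset.mem_range.mp hx
          simp only [S, Finset.mem_filter, Finset.mem_range, not_and] at hxS
          rcases le_or_gt x m with h | h
          · rw [factorization_centralBinom_of_two_mul_self_lt_three_mul m_large h, _root_.pow_zero]
            have := fun h' => hxS h' hxp
            by_contra hc
            exact this (by omega)
          · have := huniq x hxp h (by omega)
            omega
        · rw [factorization_eq_zero_of_not_prime m.centralBinom hxp, _root_.pow_zero]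
  refine hC.trans ?_
  rw [mul_comm (f q)]
  refine mul_le_mul' ?_ hfq
  rw [← Finset.prod_filter_mul_prod_filter_not S (· ≤ Nat.sqrt (2 * m))]
  apply mul_le_mul'
  · refine (Finset.prod_le_prod' fun p _ => (?_ : f p ≤ 2 * m)).trans ?_
    · exact pow_factorization_choose_le (by omega)
    have : (Finset.Icc 1 (Nat.sqrt (2 * m))).card = Nat.sqrt (2 * m) := by
      rw [Nat.card_Icc, Nat.add_sub_cancel]
    rw [Finset.prod_const]
    refine pow_right_mono₀ m2_pos ((Finset.card_le_card fun x hx => ?_).trans this.le)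
    obtain ⟨h1, h2⟩ := Finset.mem_filter.1 hx
    exact Finset.mem_Icc.mpr ⟨(Finset.mem_filter.1 h1).2.one_lt.le, h2⟩
  · refine le_trans ?_ (primorial_le_four_pow (2 * m / 3))
    refine (Finset.prod_le_prod' fun p hp => (?_ : f p ≤ p)).trans ?_
    · obtain ⟨h1, h2⟩ := Finset.mem_filter.1 hp
      refine (pow_right_mono₀ (Finset.mem_filter.1 h1).2.one_lt.le ?_).trans (pow_one p).le
      exact Nat.factorization_choose_le_one (Nat.sqrt_lt'.mp <| not_le.1 h2)
    refine Finset.prod_le_prod_of_subset_of_one_le' (Finset.filter_subset _ _) ?_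
    exact fun p hp _ => (Finset.mem_filter.1 hp).2.one_lt.le

theorem four_pow_growth (k : ℕ) : 3 * (2 * (k + 7) + 2) * (2 ^ (k + 7 + 1) + 2) ≤ 4 ^ (k + 7) := by
  induction k with
  | zero => norm_num
  | succ k ih =>
    have e1 : 2 ^ (k + 1 + 7 + 1) = 2 * 2 ^ (k + 7 + 1) := by rw [← _root_.pow_succ']
    have e2 : 4 ^ (k + 1 + 7) = 4 * 4 ^ (k + 7) := by rw [← _root_.pow_succ']
    rw [e1, e2]
    have h1 : 3 * (2 * (k + 1 + 7) + 2) ≤ 2 * (3 * (2 * (k + 7) + 2)) := by omega
    have h2 : 2 * 2 ^ (k + 7 + 1) + 2 ≤ 2 * (2 ^ (k + 7 + 1) + 2) := by omega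
    calc _ ≤ 2 * (3 * (2 * (k + 7) + 2)) * (2 * (2 ^ (k + 7 + 1) + 2)) := Nat.mul_le_mul h1 h2
      _ = 4 * (3 * (2 * (k + 7) + 2) * (2 ^ (k + 7 + 1) + 2)) := by ring
      _ ≤ 4 * 4 ^ (k + 7) := Nat.mul_le_mul_left 4 ih

theorem main_ineq (m : ℕ) (hm : 8192 ≤ m) :
    m * ((2 * m) ^ Nat.sqrt (2 * m) * 4 ^ (2 * m / 3) * (2 * m)) ≤ 4 ^ m := by
  set j := Nat.log 4 (2 * m)
  have hj1 : 4 ^ j ≤ 2 * m := Nat.pow_log_le_self 4 (by omega)
  have hj2 : 2 * m < 4 ^ (j + 1) := Nat.lt_pow_succ_log_self (by norm_num) _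
  have hj7 : 7 ≤ j := Nat.le_log_of_pow_le (by norm_num) (le_trans (by norm_num) (show 16384 ≤ 2 * m by omega))
  obtain ⟨k, hk⟩ : ∃ k, j = k + 7 := ⟨j - 7, by omega⟩
  have hs : Nat.sqrt (2 * m) ≤ 2 ^ (j + 1) := by
    apply le_of_lt
    rw [Nat.sqrt_lt, ← pow_add, show j + 1 + (j + 1) = 2 * (j + 1) by ring, pow_mul]
    exact hj2
  have hb : 2 * m ≤ 2 ^ (2 * j + 2) := by
    rw [show 2 * j + 2 = 2 * (j + 1) by ring, pow_mul]; exact hj2.le
  have hg := four_pow_growth k
  rw [← hk] at hg
  have hexp : (2 * j + 2) + (2 * j + 2) * 2 ^ (j + 1) + 2 * (2 * m / 3) + (2 * j + 2) ≤ 2 * m := by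
    have h3 : 3 * ((2 * j + 2) * (2 ^ (j + 1) + 2)) ≤ 2 * m := by
      rw [← mul_assoc]; exact hg.trans hj1
    have h4 : (2 * j + 2) * (2 ^ (j + 1) + 2) = (2 * j + 2) * 2 ^ (j + 1) + 2 * (2 * j + 2) := by ring
    rw [h4] at h3
    generalize (2 * j + 2) * 2 ^ (j + 1) = Z at h3 ⊢
    omega
  calc m * ((2 * m) ^ Nat.sqrt (2 * m) * 4 ^ (2 * m / 3) * (2 * m))
      ≤ 2 ^ (2 * j + 2) * ((2 ^ (2 * j + 2)) ^ 2 ^ (j + 1) * 2 ^ (2 * (2 * m / 3)) * 2 ^ (2 * j + 2)) := by
        refine Nat.mul_le_mul (by omega) (Nat.mul_le_mul (Nat.mul_le_mul ?_ ?_) hb)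
        · exact (Nat.pow_le_pow_left hb _).trans (Nat.pow_le_pow_right (by positivity) hs)
        · rw [pow_mul]; norm_num
    _ = 2 ^ ((2 * j + 2) + (2 * j + 2) * 2 ^ (j + 1) + 2 * (2 * m / 3) + (2 * j + 2)) := by
        rw [← pow_mul, ← pow_add, ← pow_add, ← pow_add]; ring_nf
    _ ≤ 2 ^ (2 * m) := Nat.pow_le_pow_right (by norm_num) hexp
    _ = 4 ^ m := by rw [pow_mul]; norm_num

theorem chain_step {n a b : ℕ} (ha : a.Prime) (hb : b.Prime) (hab : a < b) (hn : b ≤ n) (hn2 : n < 2 * a) :
    ∃ p q : ℕ, p.Prime ∧ q.Prime ∧ p ≠ q ∧ n < 2 * p ∧ p ≤ n ∧ n < 2 * q ∧ q ≤ n :=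
  ⟨a, b, ha, hb, hab.ne, hn2, by omega, by omega, hn⟩

/-- Two primes in `(n / 2, n]`. -/
theorem exists_two_primes (n : ℕ) (hn : 11 ≤ n) :
    ∃ p q : ℕ, p.Prime ∧ q.Prime ∧ p ≠ q ∧ n < 2 * p ∧ p ≤ n ∧ n < 2 * q ∧ q ≤ n := by
  rcases lt_or_ge n 16386 with hsmall | hbig
  · rcases lt_or_ge n 13 with h | h
    · exact chain_step (a := 7) (b := 11) (by norm_num) (by norm_num) (by norm_num) hn (by omega)
    rcases lt_or_ge n 19 with h1 | h1
    · exact chain_step (a := 11) (b := 13) (by norm_num) (by norm_num) (by norm_num) h (by omega)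
    rcases lt_or_ge n 23 with h2 | h2
    · exact chain_step (a := 13) (b := 19) (by norm_num) (by norm_num) (by norm_num) h1 (by omega)
    rcases lt_or_ge n 37 with h3 | h3
    · exact chain_step (a := 19) (b := 23) (by norm_num) (by norm_num) (by norm_num) h2 (by omega)
    rcases lt_or_ge n 43 with h4 | h4
    · exact chain_step (a := 23) (b := 37) (by norm_num) (by norm_num) (by norm_num) h3 (by omega)
    rcases lt_or_ge n 73 with h5 | h5
    · exact chain_step (a := 37) (b := 43) (by norm_num) (by norm_num) (by norm_num) h4 (by omega)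
    rcases lt_or_ge n 83 with h6 | h6
    · exact chain_step (a := 43) (b := 73) (by norm_num) (by norm_num) (by norm_num) h5 (by omega)
    rcases lt_or_ge n 139 with h7 | h7
    · exact chain_step (a := 73) (b := 83) (by norm_num) (by norm_num) (by norm_num) h6 (by omega)
    rcases lt_or_ge n 163 with h8 | h8
    · exact chain_step (a := 83) (b := 139) (by norm_num) (by norm_num) (by norm_num) h7 (by omega)
    rcases lt_or_ge n 277 with h9 | h9
    · exact chain_step (a := 139) (b := 163) (by norm_num) (by norm_num) (by norm_num) h8 (by omega)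
    rcases lt_or_ge n 317 with h10 | h10
    · exact chain_step (a := 163) (b := 277) (by norm_num) (by norm_num) (by norm_num) h9 (by omega)
    rcases lt_or_ge n 547 with h11 | h11
    · exact chain_step (a := 277) (b := 317) (by norm_num) (by norm_num) (by norm_num) h10 (by omega)
    rcases lt_or_ge n 631 with h12 | h12
    · exact chain_step (a := 317) (b := 547) (by norm_num) (by norm_num) (by norm_num) h11 (by omega)
    rcases lt_or_ge n 1093 with h13 | h13
    · exact chain_step (a := 547) (b := 631) (by norm_num) (by norm_num) (by norm_num) h12 (by omega)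
    rcases lt_or_ge n 1259 with h14 | h14
    · exact chain_step (a := 631) (b := 1093) (by norm_num) (by norm_num) (by norm_num) h13 (by omega)
    rcases lt_or_ge n 2179 with h15 | h15
    · exact chain_step (a := 1093) (b := 1259) (by norm_num) (by norm_num) (by norm_num) h14 (by omega)
    rcases lt_or_ge n 2503 with h16 | h16
    · exact chain_step (a := 1259) (b := 2179) (by norm_num) (by norm_num) (by norm_num) h15 (by omega)
    rcases lt_or_ge n 4357 with h17 | h17
    · exact chain_step (a := 2179) (b := 2503) (by norm_num) (by norm_num) (by norm_num) h16 (by omega)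
    rcases lt_or_ge n 5003 with h18 | h18
    · exact chain_step (a := 2503) (b := 4357) (by norm_num) (by norm_num) (by norm_num) h17 (by omega)
    rcases lt_or_ge n 8713 with h19 | h19
    · exact chain_step (a := 4357) (b := 5003) (by norm_num) (by norm_num) (by norm_num) h18 (by omega)
    rcases lt_or_ge n 9973 with h20 | h20
    · exact chain_step (a := 5003) (b := 8713) (by norm_num) (by norm_num) (by norm_num) h19 (by omega)
    exact chain_step (a := 8713) (b := 9973) (by norm_num) (by norm_num) (by norm_num) h20 (by omega)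
  · set m := n / 2 with hm
    by_contra hcon
    obtain ⟨q, hq, hq1, hq2⟩ := Nat.exists_prime_lt_and_le_two_mul m (by omega)
    have huniq : ∀ p : ℕ, p.Prime → m < p → p ≤ 2 * m → p = q := fun p hp h1 h2 => by
      by_contra hne
      exact hcon ⟨p, q, hp, hq, hne, by omega, by omega, by omega, by omega⟩
    have h1 := centralBinom_le_of_one_prime m q (by omega) hq hq1 huniq
    have h2 := Nat.four_pow_lt_mul_centralBinom m (by omega)
    have h3 := main_ineq m (by omega)
    exact absurd (h2.trans_le ((Nat.mul_le_mul_left m h1).trans h3)) (lt_irrefl _)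

end Cfsg.Agent.SmallOrder
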