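import Cfsg.Agent.SmallOrder.MinNormalFactor
import Mathlib

/-!
A chief factor determined by two primes `p`, `q` with Sylow subgroups of prime order and no element of
order `pq`.
-/

namespace Cfsg.Agent.SmallOrder

variable {G : Type*} [Group G] [Finite G]

/-- The hypotheses on a pair of primes. -/
structure PrimePair (G : Type*) [Group G] (p q : ℕ) : Prop where
  prime_p : p.Prime
  prime_q : q.Prime
  odd_p : p ≠ 2
  odd_q : q ≠ 2
  ne : p ≠ q
  lt_two : p < 2 * q
  dvd_p : p ∣ Nat.card G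
  dvd_q : q ∣ Nat.card G
  sq_p : ¬ p ^ 2 ∣ Nat.card G
  sq_q : ¬ q ^ 2 ∣ Nat.card G
  no_pq : ∀ g : G, ¬ p * q ∣ orderOf g

omit [Finite G] in
theorem PrimePair.not_normalizes {p q : ℕ} (h : PrimePair G p q) (P : Subgroup G) (hP : Nat.card P = p)
    (x : G) (hx : orderOf x = q) (hn : x ∈ Subgroup.normalizer (P : Set G)) : False := by
  haveI := Fact.mk h.prime_p
  haveI := Fact.mk h.prime_q
  haveI : Finite P := Nat.finite_of_card_ne_zero (by rw [hP]; exact h.prime_p.ne_zero)
  haveI := isCyclic_of_prime_card hP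
  obtain ⟨u, hu⟩ := IsCyclic.exists_generator (α := P)
  have hou : orderOf (u : G) = p := by
    rw [Subgroup.orderOf_coe, orderOf_eq_card_of_forall_mem_zpowers hu, hP]
  -- `x` induces an automorphism of order dividing `q` and `p - 1`
  let φ := MonoidHom.id G
  set f : MulAut P := P.normalizerMonoidHom ⟨x, hn⟩
  have hf1 : orderOf f ∣ q := (orderOf_map_dvd P.normalizerMonoidHom _).trans (by
    rw [Subgroup.orderOf_mk, hx])
  have hf2 : orderOf f ∣ p - 1 := (orderOf_dvd_natCard f).trans (by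
    rw [IsCyclic.card_mulAut, hP, Nat.totient_prime h.prime_p])
  have hnd : ¬ q ∣ p - 1 := fun hd => by
    obtain ⟨c, hc⟩ := hd
    have h1 := h.lt_two
    have h2 := h.prime_p.two_le
    have hc1 : c < 2 := by
      by_contra hge
      push Not at hge
      have : q * 2 ≤ q * c := Nat.mul_le_mul_left q hge
      omega
    interval_cases c
    · omega
    · have ho := (h.prime_p.odd_of_ne_two h.odd_p)
      have ho2 := (h.prime_q.odd_of_ne_two h.odd_q)
      rw [Nat.odd_iff] at ho ho2
      omega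
  have hf : f = 1 := by
    rcases (Nat.dvd_prime h.prime_q).mp hf1 with h' | h'
    · exact orderOf_eq_one_iff.mp h'
    · exact absurd (h' ▸ hf2) hnd
  have hc : Commute x (u : G) := by
    have := congrArg (fun e : MulAut P => (e u : G)) hf
    simp only [f, MulAut.one_apply] at this
    have e : x * (u : G) * x⁻¹ = u := this
    show x * (u : G) = u * x
    conv_rhs => rw [← e]
    group
  exact h.no_pq (x * u) (by
    rw [hc.orderOf_mul_eq_mul_orderOf_of_coprime (by rw [hx, hou]; exact (Nat.coprime_primes h.prime_q h.prime_p).mpr h.ne.symm),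
      hx, hou, mul_comm])

theorem frattini_element {p q : ℕ} [Fact q.Prime] (hpr : p.Prime) {K : Subgroup G} [K.Normal]
    (hqK : q ∣ Nat.card K) (hsq : ¬ q ^ 2 ∣ Nat.card G) (hpG : p ∣ Nat.card G) (hpK : ¬ p ∣ Nat.card K) :
    ∃ Q : Subgroup G, Nat.card Q = q ∧ ∃ x, orderOf x = p ∧ x ∈ Subgroup.normalizer (Q : Set G) := by
  haveI := Fact.mk hpr
  let Q : Sylow q K := Classical.arbitrary _
  have hQ : Nat.card (Q : Subgroup K) = q := by
    rw [Q.card_eq_multiplicity]
    have h1 : (Nat.card K).factorization q = 1 := by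
      have h2 : 1 ≤ (Nat.card K).factorization q :=
        ((Fact.out : q.Prime).dvd_iff_one_le_factorization Nat.card_pos.ne').mp hqK
      by_contra hne
      exact hsq ((((Fact.out : q.Prime).pow_dvd_iff_le_factorization Nat.card_pos.ne').mpr (by omega)).trans
        (Subgroup.card_subgroup_dvd_card K))
    rw [h1, pow_one]
  refine ⟨(Q : Subgroup K).map K.subtype, ?_, ?_⟩
  · rw [Subgroup.card_subtype, hQ]
  have hfr := Sylow.normalizer_sup_eq_top Q
  set M := Subgroup.normalizer (((Q : Subgroup K).map K.subtype : Subgroup G) : Set G)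
  have hd : Nat.card G ∣ Nat.card M * Nat.card K := by
    have h1 := Subgroup.card_mul_index K
    have h2 : K.index ∣ Nat.card M := by
      rw [show K.index = K.relIndex M from ?_]
      · exact Subgroup.relIndex_dvd_card K M
      · rw [← Subgroup.relIndex_sup_right, hfr, Subgroup.relIndex_top_right]
    rw [← h1, mul_comm (Nat.card K)]
    exact Nat.mul_dvd_mul_right h2 _
  have hpM : p ∣ Nat.card M := ((Nat.Prime.dvd_mul hpr).mp (hpG.trans hd)).resolve_right hpK
  obtain ⟨⟨x, hx⟩, hxo⟩ := exists_prime_orderOf_dvd_card' (G := M) p hpM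
  exact ⟨x, by rwa [Subgroup.orderOf_mk] at hxo, hx⟩

/-- The chief factor. -/
theorem PrimePair.exists_factor {p q : ℕ} (h : PrimePair G p q) (h' : PrimePair G q p) :
    ∃ (K H : Subgroup G) (_ : K.Normal), H.Normal ∧ K < H ∧ IsSimpleGroup (↥H ⧸ K.subgroupOf H) ∧
      ¬ IsMulCommutative (↥H ⧸ K.subgroupOf H) ∧ p ∣ Nat.card (↥H ⧸ K.subgroupOf H) ∧
      q ∣ Nat.card (↥H ⧸ K.subgroupOf H) ∧ ¬ p ∣ Nat.card K ∧
      (∀ K' : Subgroup G, K'.Normal → K ≤ K' → ¬ p ∣ Nat.card K' → K' = K) := by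
  classical
  haveI := Fact.mk h.prime_p
  haveI := Fact.mk h.prime_q
  obtain ⟨K, ⟨hKn, hpK⟩, hKmax⟩ := (Set.toFinite {M : Subgroup G | M.Normal ∧ ¬ p ∣ Nat.card M}).exists_maximal
    ⟨⊥, inferInstance, by rw [Subgroup.card_bot]; exact h.prime_p.not_dvd_one⟩
  haveI := hKn
  have hmax : ∀ K' : Subgroup G, K'.Normal → K ≤ K' → ¬ p ∣ Nat.card K' → K' = K := fun K' h1 h2 h3 =>
    le_antisymm (hKmax ⟨h1, h3⟩ h2) h2
  have hqK : ¬ q ∣ Nat.card K := fun hd => by
    obtain ⟨Q, hQ, x, hx, hxn⟩ := frattini_element h.prime_p hd h.sq_q h.dvd_p hpK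
    exact h'.not_normalizes Q hQ x hx hxn
  haveI : Nontrivial (G ⧸ K) := by
    rw [QuotientGroup.nontrivial_iff]
    intro e
    exact hpK (by rw [e, Subgroup.card_top]; exact h.dvd_p)
  obtain ⟨N, hN⟩ := Core.exists_isMinNormal (G := G ⧸ K)
  haveI := hN.1
  set H := N.comap (QuotientGroup.mk' K) with hH
  haveI hHn : H.Normal := inferInstance
  have hKH : K ≤ H := fun k hk => by
    show QuotientGroup.mk' K k ∈ N
    rw [QuotientGroup.mk'_apply, (QuotientGroup.eq_one_iff k).mpr hk]
    exact N.one_mem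
  let f : ↥H →* N := ((QuotientGroup.mk' K).comp H.subtype).codRestrict N fun x => x.2
  have hf : Function.Surjective f := by
    rintro ⟨y, hy⟩
    obtain ⟨x, rfl⟩ := QuotientGroup.mk'_surjective K y
    exact ⟨⟨x, hy⟩, rfl⟩
  have hker : f.ker = K.subgroupOf H := by
    ext x
    rw [MonoidHom.mem_ker, Subgroup.mem_subgroupOf]
    exact ⟨fun e => (QuotientGroup.eq_one_iff _).mp (congrArg Subtype.val e),
      fun e => Subtype.ext ((QuotientGroup.eq_one_iff _).mpr e)⟩
  let e : ↥H ⧸ K.subgroupOf H ≃* N :=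
    (QuotientGroup.quotientMulEquivOfEq hker.symm).trans (QuotientGroup.quotientKerEquivOfSurjective f hf)
  have hne : H ≠ K := fun he => hN.2.1 (by
    rw [Subgroup.eq_bot_iff_forall]
    intro y hy
    obtain ⟨x, rfl⟩ := QuotientGroup.mk'_surjective K y
    exact (QuotientGroup.eq_one_iff x).mpr (he ▸ (hy : x ∈ H)))
  have hcardH : Nat.card H = Nat.card K * Nat.card N := by
    rw [Subgroup.card_eq_card_quotient_mul_card_subgroup (K.subgroupOf H), Nat.card_congr e.toEquiv,
      Nat.card_congr (Subgroup.subgroupOfEquivOfLe hKH).toEquiv, mul_comm]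
  have hpH : p ∣ Nat.card H := by
    by_contra hc
    exact hne (hmax H hHn hKH hc)
  have hqH : q ∣ Nat.card H := by
    by_contra hc
    obtain ⟨P, hP, x, hx, hxn⟩ := frattini_element h.prime_q hpH h.sq_p h.dvd_q hc
    exact h.not_normalizes P hP x hx hxn
  have hpN : p ∣ Nat.card N := ((Nat.Prime.dvd_mul h.prime_p).mp (hcardH ▸ hpH)).resolve_left hpK
  have hqN : q ∣ Nat.card N := ((Nat.Prime.dvd_mul h.prime_q).mp (hcardH ▸ hqH)).resolve_left hqK
  have hpN2 : ¬ p ^ 2 ∣ Nat.card N := fun hd => h.sq_p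
    ((hd.trans (hcardH ▸ dvd_mul_left _ _)).trans (Subgroup.card_subgroup_dvd_card H))
  have hnc : ¬ IsMulCommutative N := by
    intro hc
    obtain ⟨a, ha⟩ := exists_prime_orderOf_dvd_card' (G := N) p hpN
    obtain ⟨b, hb⟩ := exists_prime_orderOf_dvd_card' (G := N) q hqN
    have hab : Commute a b := hc.is_comm.comm a b
    obtain ⟨x, hx⟩ := QuotientGroup.mk'_surjective K ((a * b : N) : G ⧸ K)
    refine h.no_pq x ?_
    have hd := orderOf_map_dvd (QuotientGroup.mk' K) x
    rwa [hx, Subgroup.orderOf_coe, hab.orderOf_mul_eq_mul_orderOf_of_coprime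
      (by rw [ha, hb]; exact (Nat.coprime_primes h.prime_p h.prime_q).mpr h.ne), ha, hb] at hd
  obtain ⟨T, hTN, hTs, hTna, hTnorm, hTc, hcomm, hsplit, hTnormal⟩ := exists_simple_factor hN hnc
  have hTeq : T = N := by
    refine hTnormal ⟨fun t ht g => ?_⟩
    by_contra hcon
    have hg : ¬ cjSub T g ≤ T := fun hle => hcon (hle (mem_cjSub ht))
    have hTTn : ∀ k, cjSub T k ≤ N := by
      rintro k _ ⟨s, hs, rfl⟩
      exact hN.1.conj_mem s (hTN hs) k
    by_cases hpT : p ∣ Nat.card T
    · -- two commuting copies give `p ^ 2`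
      obtain ⟨a, ha⟩ := exists_prime_orderOf_dvd_card' (G := T) p hpT
      apply hpN2
      let ψ : T × T →* N := MonoidHom.mk'
        (fun z => ⟨(z.1 : G ⧸ K) * (g * z.2 * g⁻¹), N.mul_mem (hTN z.1.2) (hN.1.conj_mem _ (hTN z.2.2) g)⟩)
        (fun z w => Subtype.ext (by
          show ((z.1 : G ⧸ K) * w.1) * (g * (z.2 * w.2 : T) * g⁻¹)
            = ((z.1 : G ⧸ K) * (g * z.2 * g⁻¹)) * ((w.1 : G ⧸ K) * (g * w.2 * g⁻¹))
          have hcm : Commute (w.1 : G ⧸ K) (g * z.2 * g⁻¹) := hcomm g hg _ w.1.2 _ (mem_cjSub z.2.2)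
          calc ((z.1 : G ⧸ K) * w.1) * (g * ((z.2 : G ⧸ K) * w.2) * g⁻¹)
              = (z.1 : G ⧸ K) * (w.1 * (g * z.2 * g⁻¹)) * (g * w.2 * g⁻¹) := by group
            _ = (z.1 : G ⧸ K) * ((g * z.2 * g⁻¹) * w.1) * (g * w.2 * g⁻¹) := by rw [hcm.eq]
            _ = _ := by group))
      have hψ : Function.Injective ψ := by
        rw [injective_iff_map_eq_one]
        rintro ⟨z1, z2⟩ hz
        have hz' : (z1 : G ⧸ K) * (g * z2 * g⁻¹) = 1 := congrArg Subtype.val hz
        have h1 : (z1 : G ⧸ K) = 1 := hTc z1 z1.2 fun u hu => by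
          rw [mul_eq_one_iff_eq_inv] at hz'
          rw [hz']
          exact (hcomm g hg u hu _ (mem_cjSub z2.2)).inv_right
        rw [h1, one_mul, conj_eq_one_iff] at hz'
        exact Prod.ext (Subtype.ext h1) (Subtype.ext hz')
      calc p ^ 2 ∣ Nat.card T * Nat.card T := by rw [pow_two]; exact Nat.mul_dvd_mul hpT hpT
        _ = Nat.card (T × T) := (Nat.card_prod _ _).symm
        _ ∣ Nat.card N := Subgroup.card_dvd_of_injective ψ hψ
    · -- all conjugates avoid `p`
      obtain ⟨O, ⟨hO1, hO2, hO3⟩, hOmax⟩ := (Set.toFinite {M : Subgroup (G ⧸ K) | M ≤ N ∧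
        (∀ u ∈ N, ∀ m ∈ M, u * m * u⁻¹ ∈ M) ∧ ¬ p ∣ Nat.card M}).exists_maximal ⟨⊥, bot_le,
        fun u _ m hm => by rw [Subgroup.mem_bot] at hm; subst hm; simp,
        by rw [Subgroup.card_bot]; exact h.prime_p.not_dvd_one⟩
      have hcj : ∀ k, cjSub T k ≤ O := fun k => by
        have hnormO : cjSub T k ≤ Subgroup.normalizer (O : Set (G ⧸ K)) := fun s hs => by
          have hm : ∀ u ∈ N, ∀ m ∈ O, u * m * u⁻¹ ∈ O := hO2
          rw [Subgroup.mem_normalizer_iff]
          refine fun m => ⟨hm s (hTTn k hs) m, fun h'' => ?_⟩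
          have := hm s⁻¹ (N.inv_mem (hTTn k hs)) _ h''
          simpa [mul_assoc] using this
        refine le_trans le_sup_left (hOmax (y := cjSub T k ⊔ O) ⟨sup_le (hTTn k) hO1, ?_, ?_⟩ le_sup_right)
        · intro u hu m hm
          have h1 : ∀ z ∈ cjSub T k, u * z * u⁻¹ ∈ cjSub T k := by
            rintro _ ⟨s, hs, rfl⟩
            refine ⟨(k⁻¹ * u * k) * s * (k⁻¹ * u * k)⁻¹,
              hTnorm _ (by simpa using hN.1.conj_mem u hu k⁻¹) s hs, ?_⟩
            show k * ((k⁻¹ * u * k) * s * (k⁻¹ * u * k)⁻¹) * k⁻¹ = u * (k * s * k⁻¹) * u⁻¹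
            group
          have hle : (cjSub T k ⊔ O).map (MulAut.conj u).toMonoidHom ≤ cjSub T k ⊔ O := by
            rw [Subgroup.map_sup]
            refine sup_le_sup ?_ ?_
            · rintro _ ⟨z, hz, rfl⟩; exact h1 z hz
            · rintro _ ⟨z, hz, rfl⟩; exact hO2 u hu z hz
          exact hle ⟨m, hm, rfl⟩
        · intro hd
          have h1 := Subgroup.relIndex_mul_relIndex (⊥ : Subgroup (G ⧸ K)) O (cjSub T k ⊔ O) bot_le le_sup_right
          rw [Subgroup.relIndex_bot_left, Subgroup.relIndex_bot_left] at h1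
          rw [← h1] at hd
          rcases (Nat.Prime.dvd_mul h.prime_p).mp hd with h2 | h2
          · exact hO3 h2
          · apply hpT
            have h3 : O.relIndex (cjSub T k ⊔ O) ∣ Nat.card (cjSub T k) := by
              rw [sup_comm]
              have : O.relIndex (O ⊔ cjSub T k) = O.relIndex (cjSub T k) := by
                set M := Subgroup.normalizer (O : Set (G ⧸ K))
                rw [← Subgroup.relIndex_subgroupOf (sup_le Subgroup.le_normalizer hnormO : O ⊔ cjSub T k ≤ M),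
                  ← Subgroup.relIndex_subgroupOf hnormO,
                  Subgroup.subgroupOf_sup Subgroup.le_normalizer hnormO, Subgroup.relIndex_sup_left]
              rw [this]
              exact Subgroup.relIndex_dvd_card _ _
            rw [← Nat.card_congr (T.equivMapOfInjective _ (MulAut.conj k).injective).toEquiv] at h3
            exact h2.trans h3
      have hNO : N ≤ O := by
        intro x hx
        have hgen : Subgroup.normalClosure (T : Set (G ⧸ K)) ≤ O := by
          rw [Subgroup.normalClosure, Subgroup.closure_le]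
          intro y hy
          rw [Group.mem_conjugatesOfSet_iff] at hy
          obtain ⟨s, hs, hc⟩ := hy
          obtain ⟨c, rfl⟩ := isConj_iff.mp hc
          exact hcj c (mem_cjSub hs)
        rcases hN.2.2 _ Subgroup.normalClosure_normal (Subgroup.normalClosure_le_normal fun s hs => hTN hs) with h1 | h1
        · have hT1 : T = ⊥ := le_bot_iff.mp (h1 ▸ Subgroup.le_normalClosure)
          exact absurd (hT1 ▸ ⟨⟨fun x y => Subsingleton.elim _ _⟩⟩) hTna
        · exact hgen (h1.symm ▸ hx)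
      exact hO3 (hpN.trans (Subgroup.card_dvd_of_le hNO))
  subst hTeq
  refine ⟨K, H, hKn, hHn, lt_of_le_of_ne hKH (Ne.symm hne), ?_, ?_, ?_, ?_, hpK, hmax⟩
  · haveI := hTs
    haveI : Nontrivial (↥H ⧸ K.subgroupOf H) := e.toEquiv.nontrivial
    exact IsSimpleGroup.isSimpleGroup_of_surjective e.symm.toMonoidHom e.symm.surjective
  · intro hc
    refine hTna ⟨⟨fun x y => e.symm.injective ?_⟩⟩
    rw [map_mul, map_mul]
    exact hc.is_comm.comm _ _
  · rw [Nat.card_congr e.toEquiv]; exact hpN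
  · rw [Nat.card_congr e.toEquiv]; exact hqN

end Cfsg.Agent.SmallOrder
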